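import Cfsg.Agent.H885.C2Main
import Cfsg.Agent.H886.PlaneMax
set_option linter.all false

-- part: H885/HypCore
section
/-!
Orthogonal decompositions into hyperbolic planes: torus elements, and the criterion `E_le_of_mem_T`.
-/

set_option autoImplicit false
set_option linter.unusedSectionVars false

namespace Cfsg.Agent.H885.HypCore

open QuadraticMap Cfsg.Agent.LieClassical.OrthCore Cfsg.Agent.LieClassical.OrthTrans
  Cfsg.Agent.LieClassical.OrthFinite Cfsg.Agent.LieClassical.OrthSimple Cfsg.Agent.H883.Bridge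
  Cfsg.Agent.H885.RootT Cfsg.Agent.H885.Irr Cfsg.Agent.H885.C2Scalar Cfsg.Agent.H885.C2Conn
  Cfsg.Agent.H886.Decomp Cfsg.Agent.H885.C2Rigid Cfsg.Agent.H885.C2Trans
  Cfsg.Agent.H885.C2NonRigid

variable {F V : Type*} [Field F] [AddCommGroup V] [Module F V] {Q : QuadraticForm F V} {t : ℕ}
  {D : Fin t → Submodule F V} {p : Fin t → V →ₗ[F] V} {M : Subgroup (V ≃ₗ[F] V)}
  {e f : Fin t → V}

/-! ### Torus elements of a hyperbolic plane -/

theorem Q_comb {a b : V} (h : Hyp Q a b) (x y : F) : Q (x • a + y • b) = x * y := by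
  rw [Q_add, QuadraticMap.map_smul, QuadraticMap.map_smul, polar_smul_left, polar_smul_right,
    h.left, h.right, h.pair]
  simp

theorem Q_gamma {a b : V} (h : Hyp Q a b) {γ : F} (hγ : γ ≠ 0) :
    Q (γ • a + γ⁻¹ • b) ≠ 0 := by
  rw [Q_comb h, mul_inv_cancel₀ hγ]
  exact one_ne_zero

theorem Q_one {a b : V} (h : Hyp Q a b) : Q (a + b) = 1 := by
  have := Q_comb h 1 1
  rwa [one_smul, one_smul, one_mul] at this

theorem Q_one_ne {a b : V} (h : Hyp Q a b) : Q (a + b) ≠ 0 := by
  rw [Q_one h]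
  exact one_ne_zero

/-- The torus element with eigenvalues `γ²`, `γ⁻²` on the hyperbolic pair `a`, `b`. -/
noncomputable def tor {a b : V} (h : Hyp Q a b) {γ : F} (hγ : γ ≠ 0) : V ≃ₗ[F] V :=
  refl Q (γ • a + γ⁻¹ • b) (Q_gamma h hγ) * refl Q (a + b) (Q_one_ne h)

theorem tor_apply {a b : V} (h : Hyp Q a b) {γ : F} (hγ : γ ≠ 0) (x : V) :
    tor h hγ x = x + ((γ ^ 2 - 1) * polar Q b x) • a + (((γ⁻¹) ^ 2 - 1) * polar Q a x) • b := by
  have e1 : refl Q (a + b) (Q_one_ne h) x = x - (polar Q a x + polar Q b x) • (a + b) := by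
    rw [refl_apply, Q_one h, inv_one, one_mul, polar_add_left]
  have e2 : (Q (γ • a + γ⁻¹ • b))⁻¹ = 1 := by
    rw [Q_comb h, mul_inv_cancel₀ hγ, inv_one]
  have hba : polar Q b a = 1 := by rw [polar_comm]; exact h.pair
  show refl Q (γ • a + γ⁻¹ • b) (Q_gamma h hγ) (refl Q (a + b) (Q_one_ne h) x) = _
  rw [e1, refl_apply, e2, one_mul, polar_add_left, polar_smul_left, polar_smul_left,
    polar_sub_right, polar_sub_right, polar_smul_right, polar_smul_right, polar_add_right,
    polar_add_right, polar_self_of_sing h.left, polar_self_of_sing h.right, h.pair, hba]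
  simp only [smul_eq_mul]
  match_scalars
  · ring
  · field_simp
    ring
  · field_simp
    ring

theorem tor_left {a b : V} (h : Hyp Q a b) {γ : F} (hγ : γ ≠ 0) :
    tor h hγ a = (γ ^ 2) • a := by
  have hba : polar Q b a = 1 := by rw [polar_comm]; exact h.pair
  rw [tor_apply, hba, polar_self_of_sing h.left]
  module

theorem tor_right {a b : V} (h : Hyp Q a b) {γ : F} (hγ : γ ≠ 0) :
    tor h hγ b = ((γ⁻¹) ^ 2) • b := by
  rw [tor_apply, h.pair, polar_self_of_sing h.right]
  module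

theorem tor_fix {a b : V} (h : Hyp Q a b) {γ : F} (hγ : γ ≠ 0) {x : V} (h1 : polar Q a x = 0)
    (h2 : polar Q b x = 0) : tor h hγ x = x := by
  rw [tor_apply, h1, h2]
  simp

theorem tor_mem [FiniteDimensional F V] (hd : Dec Q D p) (hG : Good Q) {i : Fin t} {a b : V}
    (ha : a ∈ D i) (hb : b ∈ D i) (h : Hyp Q a b) {γ : F} (hγ : γ ≠ 0) :
    tor h hγ ∈ stabFamily D ⊓ E Q := by
  refine hd.refl_mul_refl_mem hG ((D i).add_mem ((D i).smul_mem _ ha) ((D i).smul_mem _ hb))
    ((D i).add_mem ha hb) _ _ ?_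
  rw [Q_comb h, Q_one h, mul_inv_cancel₀ hγ]

theorem exists_gamma [Finite F] (hF : 7 ≤ Nat.card F) :
    ∃ γ : F, γ ≠ 0 ∧ γ ^ 2 ≠ 1 ∧ γ ^ 2 ≠ -1 := by
  classical
  obtain ⟨s, hs, hs', -⟩ := exists_sqrt_set (1 : F) 1 one_ne_zero
  obtain ⟨r, hr, hr', -⟩ := exists_sqrt_set (1 : F) (-1) one_ne_zero
  have hcard : (insert 0 (s ∪ r)).card < Nat.card F := by
    have h1 : (insert 0 (s ∪ r)).card ≤ (s ∪ r).card + 1 := Finset.card_insert_le _ _
    have h3 := Finset.card_union_le s r
    omega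
  obtain ⟨m, hm⟩ := exists_avoid _ hcard
  simp only [Finset.mem_insert, Finset.mem_union, not_or] at hm
  obtain ⟨hm0, hms, hmr⟩ := hm
  exact ⟨m, hm0, fun h => hms (hs' m (by rw [one_mul, h])), fun h => hmr (hr' m (by rw [one_mul, h]))⟩

/-- A subspace invariant under a torus element contains the eigencomponents of its elements. -/
theorem torus_split {a b : V} (h : Hyp Q a b) {γ : F} (hγ : γ ≠ 0) (h1 : γ ^ 2 ≠ 1)
    (h2 : γ ^ 2 ≠ -1) {K : Submodule F V} (hK : ∀ w ∈ K, tor h hγ w ∈ K) {x : V} (hx : x ∈ K) :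
    (polar Q b x ≠ 0 → a ∈ K) ∧ (polar Q a x ≠ 0 → b ∈ K) := by
  have hd : ((γ ^ 2 - 1) * polar Q b x) • a + (((γ⁻¹) ^ 2 - 1) * polar Q a x) • b ∈ K := by
    have := K.sub_mem (hK x hx) hx
    rw [tor_apply, add_assoc, add_sub_cancel_left] at this
    exact this
  have hd' := hK _ hd
  rw [map_add, map_smul, map_smul, tor_left, tor_right] at hd'
  have hγ2 : γ ^ 2 ≠ 0 := pow_ne_zero 2 hγ
  have h4 : γ ^ 2 - (γ⁻¹) ^ 2 ≠ 0 := by
    intro h0
    have h5 : (γ ^ 2 - 1) * (γ ^ 2 + 1) = 0 := by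
      have h6 : γ * γ⁻¹ = 1 := mul_inv_cancel₀ hγ
      have h7 : γ ^ 2 * (γ⁻¹) ^ 2 = 1 := by rw [← mul_pow, h6, one_pow]
      linear_combination γ ^ 2 * h0 + h7
    rcases mul_eq_zero.1 h5 with h | h
    · exact h1 (by linear_combination h)
    · exact h2 (by linear_combination h)
  have h3 : γ ^ 2 - 1 ≠ 0 := fun h => h1 (by linear_combination h)
  have h3' : (γ⁻¹) ^ 2 - 1 ≠ 0 := by
    intro h0
    apply h1
    have h6 : γ * γ⁻¹ = 1 := mul_inv_cancel₀ hγ
    have h7 : γ ^ 2 * (γ⁻¹) ^ 2 = 1 := by rw [← mul_pow, h6, one_pow]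
    linear_combination h7 - γ ^ 2 * h0
  refine ⟨fun hb => ?_, fun ha => ?_⟩
  · have h5 := K.sub_mem hd' (K.smul_mem ((γ⁻¹) ^ 2) hd)
    have h6 : ((γ ^ 2 - 1) * polar Q b x) • (γ ^ 2) • a +
        (((γ⁻¹) ^ 2 - 1) * polar Q a x) • ((γ⁻¹) ^ 2) • b -
        ((γ⁻¹) ^ 2) • (((γ ^ 2 - 1) * polar Q b x) • a + (((γ⁻¹) ^ 2 - 1) * polar Q a x) • b) =
        ((γ ^ 2 - (γ⁻¹) ^ 2) * ((γ ^ 2 - 1) * polar Q b x)) • a := by module
    rw [h6] at h5
    exact (K.smul_mem_iff (mul_ne_zero h4 (mul_ne_zero h3 hb))).1 h5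
  · have h5 := K.sub_mem hd' (K.smul_mem (γ ^ 2) hd)
    have h6 : ((γ ^ 2 - 1) * polar Q b x) • (γ ^ 2) • a +
        (((γ⁻¹) ^ 2 - 1) * polar Q a x) • ((γ⁻¹) ^ 2) • b -
        (γ ^ 2) • (((γ ^ 2 - 1) * polar Q b x) • a + (((γ⁻¹) ^ 2 - 1) * polar Q a x) • b) =
        (-(γ ^ 2 - (γ⁻¹) ^ 2) * (((γ⁻¹) ^ 2 - 1) * polar Q a x)) • b := by module
    rw [h6] at h5
    exact (K.smul_mem_iff (mul_ne_zero (neg_ne_zero.2 h4) (mul_ne_zero h3' ha))).1 h5

/-- Coordinates in a hyperbolic plane. -/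
theorem coord {W : Submodule F V} (hW : Module.finrank F W = 2) {a b : V} (ha : a ∈ W)
    (hb : b ∈ W) (h : Hyp Q a b) {x : V} (hx : x ∈ W) :
    x = polar Q b x • a + polar Q a x • b := by
  have hba : polar Q b a = 1 := by rw [polar_comm]; exact h.pair
  have hli : LinearIndependent F ![a, b] := by
    rw [LinearIndependent.pair_iff]
    intro s r hsr
    have h1 : polar Q b (s • a + r • b) = 0 := by rw [hsr, polar_zero_right]
    have h2 : polar Q a (s • a + r • b) = 0 := by rw [hsr, polar_zero_right]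
    rw [polar_add_right, polar_smul_right, polar_smul_right, hba, polar_self_of_sing h.right] at h1
    rw [polar_add_right, polar_smul_right, polar_smul_right, h.pair,
      polar_self_of_sing h.left] at h2
    simp only [smul_eq_mul] at h1 h2
    exact ⟨by linear_combination h1, by linear_combination h2⟩
  have hle : Submodule.span F (Set.range ![a, b]) ≤ W := by
    rw [Submodule.span_le]
    rintro _ ⟨i, rfl⟩
    fin_cases i
    · exact ha
    · exact hb
  have : Module.Finite F W := Module.finite_of_finrank_pos (by omega)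
  have heq : Submodule.span F (Set.range ![a, b]) = W := by
    apply Submodule.eq_of_le_of_finrank_eq hle
    rw [finrank_span_eq_card hli, hW, Fintype.card_fin]
  rw [← heq] at hx
  obtain ⟨c, hc⟩ := (Submodule.mem_span_range_iff_exists_fun F).1 hx
  rw [Fin.sum_univ_two] at hc
  have hc' : c 0 • a + c 1 • b = x := hc
  rw [← hc', polar_add_right, polar_smul_right, polar_smul_right, hba,
    polar_self_of_sing h.right, polar_add_right, polar_smul_right, polar_smul_right, h.pair,
    polar_self_of_sing h.left]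
  simp

/-- Overgroups of the stabiliser of a decomposition into hyperbolic planes. -/
structure HCtx (Q : QuadraticForm F V) (D : Fin t → Submodule F V) (p : Fin t → V →ₗ[F] V)
    (e f : Fin t → V) (M : Subgroup (V ≃ₗ[F] V)) : Prop where
  dec : Dec Q D p
  good : Good Q
  fin : ∀ i, Module.finrank F (D i) = 2
  he : ∀ i, e i ∈ D i
  hf : ∀ i, f i ∈ D i
  hyp : ∀ i, Hyp Q (e i) (f i)
  iso : ∀ i j, ∃ φ : D i ≃ₗ[F] D j, ∀ x, Q (φ x : V) = Q (x : V)
  three : 3 ≤ t
  card : 7 ≤ Nat.card F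
  le : stabFamily D ⊓ E Q ≤ M
  le_E : M ≤ E Q

namespace HCtx

variable [FiniteDimensional F V]

theorem le_O (c : HCtx Q D p e f M) : M ≤ O Q := c.le_E.trans E_le_O

theorem nd (c : HCtx Q D p e f M) (i : Fin t) : NdOn Q (D i) := c.dec.nondegOn c.good.nondeg i

theorem refl_mem (c : HCtx Q D p e f M) {i j : Fin t} {a b : V} (ha : a ∈ D i) (hb : b ∈ D j)
    (hQa : Q a ≠ 0) (hQb : Q b ≠ 0) (hab : Q a = Q b) : refl Q a hQa * refl Q b hQb ∈ M :=
  c.le (c.dec.refl_mul_refl_mem c.good ha hb hQa hQb hab)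

theorem tor_mem (c : HCtx Q D p e f M) {i : Fin t} {a b : V} (ha : a ∈ D i) (hb : b ∈ D i)
    (h : Hyp Q a b) {γ : F} (hγ : γ ≠ 0) : tor h hγ ∈ M :=
  c.le (Cfsg.Agent.H885.HypCore.tor_mem c.dec c.good ha hb h hγ)

theorem exists_third (c : HCtx Q D p e f M) (i j : Fin t) : ∃ l, l ≠ i ∧ l ≠ j := by
  classical
  have ht := c.three
  obtain ⟨l, -, hl⟩ := Finset.exists_mem_notMem_of_card_lt_card
    (s := ({i, j} : Finset (Fin t))) (t := Finset.univ) (by
      rw [Finset.card_univ, Fintype.card_fin]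
      exact lt_of_le_of_lt Finset.card_le_two (by omega))
  simp only [Finset.mem_insert, Finset.mem_singleton, not_or] at hl
  exact ⟨l, hl.1, hl.2⟩

theorem exists_norm (c : HCtx Q D p e f M) (j : Fin t) (v : F) : ∃ b ∈ D j, Q b = v := by
  refine ⟨(1 : F) • e j + v • f j, (D j).add_mem ((D j).smul_mem _ (c.he j))
    ((D j).smul_mem _ (c.hf j)), ?_⟩
  rw [Q_comb (c.hyp j), one_mul]

/-- `T_s(M)` contains `D j` if it contains a vector with nonzero `j`-component. -/
theorem le_T_of_mem [Finite F] (c : HCtx Q D p e f M) {i j : Fin t} (hij : i ≠ j) {s x : V}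
    (hs : s ∈ D i) (hQs : Q s = 0) (hx : x ∈ T M Q s hQs) (hxj : p j x ≠ 0) :
    D j ≤ T M Q s hQs := by
  have hMO := c.le_O
  have hinv : ∀ m ∈ M, m s = s → ∀ w ∈ T M Q s hQs, m w ∈ T M Q s hQs := by
    intro m hm hms w hw
    have h1 := T_conj hm (hMO hm) hw (by rw [hms]; exact hQs)
    simpa only [hms] using h1
  have hperp : ∀ y ∈ D j, polar Q y s = 0 := fun y hy => c.dec.orth j i hij.symm y hy s hs
  obtain ⟨γ, hγ, hγ1, hγ2⟩ := exists_gamma (F := F) c.card
  have hK : ∀ w ∈ T M Q s hQs, tor (c.hyp j) hγ w ∈ T M Q s hQs := by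
    intro w hw
    refine hinv _ (c.tor_mem (c.he j) (c.hf j) (c.hyp j) hγ) ?_ w hw
    exact tor_fix _ _ (hperp _ (c.he j)) (hperp _ (c.hf j))
  have hsplit := torus_split (c.hyp j) hγ hγ1 hγ2 hK hx
  -- exchange of `e j` and `f j`
  obtain ⟨l, hli, hlj⟩ := c.exists_third i j
  have hQ1 := Q_one (c.hyp j)
  have hQ1' := Q_one (c.hyp l)
  have hm := c.refl_mem ((D j).add_mem (c.he j) (c.hf j)) ((D l).add_mem (c.he l) (c.hf l))
    (Q_one_ne (c.hyp j)) (Q_one_ne (c.hyp l)) (by rw [hQ1, hQ1'])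
  set m := refl Q (e j + f j) (Q_one_ne (c.hyp j)) * refl Q (e l + f l) (Q_one_ne (c.hyp l))
    with hmdef
  have hfixl : ∀ y : V, (∀ z ∈ D l, polar Q z y = 0) →
      m y = refl Q (e j + f j) (Q_one_ne (c.hyp j)) y := by
    intro y hy
    show refl Q (e j + f j) (Q_one_ne (c.hyp j)) (refl Q (e l + f l) (Q_one_ne (c.hyp l)) y) = _
    congr 1
    rw [refl_apply, hy _ ((D l).add_mem (c.he l) (c.hf l))]
    simp
  have hms : m s = s := by
    rw [hfixl s (fun z hz => c.dec.orth l i hli z hz s hs), refl_apply,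
      hperp _ ((D j).add_mem (c.he j) (c.hf j))]
    simp
  have hfe : polar Q (f j) (e j) = 1 := by rw [polar_comm]; exact (c.hyp j).pair
  have hme : m (e j) = -(f j) := by
    rw [hfixl _ (fun z hz => c.dec.orth l j hlj z hz _ (c.he j)), refl_apply, hQ1, polar_add_left,
      polar_self_of_sing (c.hyp j).left, hfe]
    simp
  have hmf : m (f j) = -(e j) := by
    rw [hfixl _ (fun z hz => c.dec.orth l j hlj z hz _ (c.hf j)), refl_apply, hQ1, polar_add_left,
      polar_self_of_sing (c.hyp j).right, (c.hyp j).pair]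
    simp
  have heT : e j ∈ T M Q s hQs ∧ f j ∈ T M Q s hQs := by
    by_cases h1 : polar Q (f j) x = 0
    · have h2 : polar Q (e j) x ≠ 0 := by
        intro h2
        apply hxj
        rw [coord (c.fin j) (c.he j) (c.hf j) (c.hyp j) (c.dec.mem j x),
          ← c.dec.polar_right j x (c.hf j), ← c.dec.polar_right j x (c.he j), h1, h2]
        simp
      have h3 := hsplit.2 h2
      have h4 := hinv m hm hms _ h3
      rw [hmf] at h4
      exact ⟨(Submodule.neg_mem_iff _).1 h4, h3⟩
    · have h3 := hsplit.1 h1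
      have h4 := hinv m hm hms _ h3
      rw [hme] at h4
      exact ⟨h3, (Submodule.neg_mem_iff _).1 h4⟩
  intro y hy
  rw [coord (c.fin j) (c.he j) (c.hf j) (c.hyp j) hy]
  exact Submodule.add_mem _ (Submodule.smul_mem _ _ heT.1) (Submodule.smul_mem _ _ heT.2)

/-- **The criterion** for hyperbolic planes. -/
theorem E_le_of_mem_T [Finite F] (c : HCtx Q D p e f M) {i : Fin t} {s x : V} (hs : s ∈ D i)
    (hs0 : s ≠ 0) (hQs : Q s = 0) (hx : x ∈ T M Q s hQs) (hxi : x ∉ D i) : E Q ≤ M := by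
  have hMO := c.le_O
  obtain ⟨j, hji, hxj⟩ := c.dec.exists_ne hxi
  have hj : D j ≤ T M Q s hQs := c.le_T_of_mem hji.symm hs hQs hx hxj
  have hall : ∀ l, l ≠ i → D l ≤ T M Q s hQs := by
    intro l hli
    by_cases hjl : j = l
    · subst hjl
      exact hj
    · obtain ⟨φ, hφ⟩ := c.iso j l
      obtain ⟨τ, hτ, hτ1, hτ2⟩ := exists_swap c.dec c.good (k := 2) (by omega) c.fin hjl hφ
        (c.he l) (c.hf l) (c.hyp l)
      have hτM := c.le hτ
      have hτs : τ s = s := hτ2 i hji.symm hli.symm s hs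
      rw [← hτ1]
      rintro _ ⟨z, hz, rfl⟩
      have h1 := T_conj hτM (hMO hτM) (hj hz) (by rw [hτs]; exact hQs)
      show τ z ∈ T M Q s hQs
      simpa only [hτs] using h1
  obtain ⟨s', hs', hQs', hss'⟩ := exists_partner (c.nd i) hs hs0 hQs
  have hhyp : Hyp Q s s' := ⟨hQs, hQs', hss'⟩
  have hfull : Full M Q s := by
    refine full_of_T_eq (hx := hQs) fun w hw => ?_
    rw [← c.dec.sum w]
    refine Submodule.sum_mem _ fun l _ => ?_
    by_cases hli : l = i
    · subst hli
      have h1 := coord (c.fin l) hs hs' hhyp (c.dec.mem l w)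
      rw [← c.dec.polar_right l w hs, hw, zero_smul, add_zero] at h1
      rw [h1]
      exact Submodule.smul_mem _ _ (self_mem_T hQs)
    · exact hall l hli (c.dec.mem l w)
  have hQd : Q (s - s') = -1 := by
    rw [sub_eq_add_neg, Q_add, QuadraticMap.map_neg, polar_neg_right, hQs, hQs', hss']
    simp
  have hd : s - s' ∈ D i := (D i).sub_mem hs hs'
  have hQd0 : Q (s - s') ≠ 0 := by rw [hQd]; exact neg_ne_zero.2 one_ne_zero
  obtain ⟨b, hb, hQb⟩ := c.exists_norm j (Q (s - s'))
  have hQb0 : Q b ≠ 0 := by rw [hQb]; exact hQd0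
  have hm := c.refl_mem hd hb hQd0 hQb0 hQb.symm
  have e1 : (refl Q (s - s') hQd0 * refl Q b hQb0) s = s' := by
    show refl Q (s - s') hQd0 (refl Q b hQb0 s) = s'
    have e0 : refl Q b hQb0 s = s := by
      rw [refl_apply, c.dec.orth j i hji b hb s hs]
      simp
    rw [e0, refl_apply, hQd, polar_sub_left, polar_self_of_sing hQs, polar_comm Q s' s, hss']
    have : ((-1 : F))⁻¹ * (0 - 1) = 1 := by
      rw [zero_sub]
      exact inv_mul_cancel₀ (neg_ne_zero.2 one_ne_zero)
    rw [this, one_smul]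
    abel
  have hfull' : Full M Q s' := by
    rw [← e1]
    exact hfull.conj hm (hMO hm)
  exact E_le_of_full c.good hMO hfull hfull' (by rw [hss']; exact one_ne_zero)

end HCtx

end Cfsg.Agent.H885.HypCore
end

-- part: H885/HypRigid
section
/-!
Rigid overgroups of the stabiliser of an orthogonal decomposition into at least seven hyperbolic planes,
`|F| ≥ 7`: they permute the planes or contain `E Q`.
-/

set_option autoImplicit false
set_option linter.unusedSectionVars false

namespace Cfsg.Agent.H885.HypRigid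

open QuadraticMap Cfsg.Agent.LieClassical.OrthCore Cfsg.Agent.LieClassical.OrthTrans
  Cfsg.Agent.LieClassical.OrthFinite Cfsg.Agent.LieClassical.OrthSimple Cfsg.Agent.H883.Bridge
  Cfsg.Agent.H885.RootT Cfsg.Agent.H885.Irr Cfsg.Agent.H885.C2Scalar Cfsg.Agent.H885.C2Conn
  Cfsg.Agent.H886.Decomp Cfsg.Agent.H885.C2Rigid Cfsg.Agent.H885.C2Trans
  Cfsg.Agent.H885.C2NonRigid Cfsg.Agent.H885.HypCore
open Cfsg.Agent.H886.Rigid (conj_refl_mul_refl)
open Cfsg.Agent.H886.PlaneRigid (exists_preimage)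

variable {F V : Type*} [Field F] [AddCommGroup V] [Module F V] {Q : QuadraticForm F V} {t : ℕ}
  {D : Fin t → Submodule F V} {p : Fin t → V →ₗ[F] V} {M : Subgroup (V ≃ₗ[F] V)}
  {e f : Fin t → V}

/-- Connectedness of hyperbolic planes, `q ≥ 7`. -/
theorem conn_hyp [Finite F] (hF : 7 ≤ Nat.card F) {W : Submodule F V}
    (hW : Module.finrank F W = 2) {a b : V} (ha : a ∈ W) (hb : b ∈ W) (h : Hyp Q a b) :
    Conn Q W := by
  intro y hy hQy K hK
  obtain ⟨γ, hγ, hγ1, hγ2⟩ := exists_gamma (F := F) hF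
  have hba : polar Q b a = 1 := by rw [polar_comm]; exact h.pair
  have hyc := coord hW ha hb h hy
  set α := polar Q b y with hα
  set β := polar Q a y with hβ
  have hQy' : Q y = α * β := by
    rw [hyc, Q_comb h]
  have hαβ : α * β ≠ 0 := by rw [← hQy']; exact hQy
  have hα0 : α ≠ 0 := left_ne_zero_of_mul hαβ
  have hβ0 : β ≠ 0 := right_ne_zero_of_mul hαβ
  have hyK : y ∈ K := hK y Rch.base
  have hzK : (γ * α) • a + (γ⁻¹ * β) • b ∈ K := by
    refine hK _ (Rch.step Rch.base (W.add_mem (W.smul_mem _ ha) (W.smul_mem _ hb)) ?_ ?_)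
    · rw [Q_comb h, hQy']
      field_simp
    · rw [polar_add_right, polar_smul_right, polar_smul_right, polar_comm Q y a, polar_comm Q y b,
        ← hα, ← hβ, smul_eq_mul, smul_eq_mul]
      intro h0
      apply hγ2
      have h1 : γ * γ⁻¹ = 1 := mul_inv_cancel₀ hγ
      have h2 : (γ ^ 2 + 1) * (α * β) = 0 := by
        linear_combination γ * h0 - α * β * h1
      have h3 := (mul_eq_zero.1 h2).resolve_right hαβ
      linear_combination h3
  have hbK : b ∈ K := by
    have h1 := K.sub_mem hyK (K.smul_mem γ⁻¹ hzK)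
    have h2 : y - γ⁻¹ • ((γ * α) • a + (γ⁻¹ * β) • b) = ((1 - (γ⁻¹) ^ 2) * β) • b := by
      rw [hyc]
      match_scalars
      · field_simp
        ring
      · ring
    rw [h2] at h1
    refine (K.smul_mem_iff (mul_ne_zero ?_ hβ0)).1 h1
    intro h0
    apply hγ1
    have h6 : γ * γ⁻¹ = 1 := mul_inv_cancel₀ hγ
    have h7 : γ ^ 2 * (γ⁻¹) ^ 2 = 1 := by rw [← mul_pow, h6, one_pow]
    linear_combination h7 + γ ^ 2 * h0
  have haK : a ∈ K := by
    have h1 := K.sub_mem hyK (K.smul_mem γ hzK)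
    have h2 : y - γ • ((γ * α) • a + (γ⁻¹ * β) • b) = ((1 - γ ^ 2) * α) • a := by
      rw [hyc]
      match_scalars
      · ring
      · field_simp
        ring
    rw [h2] at h1
    refine (K.smul_mem_iff (mul_ne_zero ?_ hα0)).1 h1
    intro h0
    apply hγ1
    linear_combination -h0
  intro x hx
  rw [coord hW ha hb h hx]
  exact K.add_mem (K.smul_mem _ haK) (K.smul_mem _ hbK)

/-- Conjugates of torus elements. -/
theorem tor_conj {m : V ≃ₗ[F] V} (hm : m ∈ O Q) {a b : V} (h : Hyp Q a b)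
    (h' : Hyp Q (m a) (m b)) {γ : F} (hγ : γ ≠ 0) : m * tor h hγ * m⁻¹ = tor h' hγ := by
  ext x
  show m (tor h hγ (m.symm x)) = _
  rw [tor_apply, tor_apply, map_add, map_add, map_smul, map_smul, LinearEquiv.apply_symm_apply,
    ← polar_map hm b, ← polar_map hm a, LinearEquiv.apply_symm_apply]

theorem hyp_map {m : V ≃ₗ[F] V} (hm : m ∈ O Q) {a b : V} (h : Hyp Q a b) :
    Hyp Q (m a) (m b) :=
  ⟨by rw [mem_O.1 hm]; exact h.left, by rw [mem_O.1 hm]; exact h.right,
    by rw [polar_map hm]; exact h.pair⟩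

/-- An isometry with singular displacements in a nondegenerate plane is trivial on it. -/
theorem fix_of_sing_disp {W : Submodule F V} (hW : NdOn Q W) (hfin : Module.finrank F W = 2)
    {u : V ≃ₗ[F] V} (hu : u ∈ O Q) (h1 : ∀ x ∈ W, x - u x ∈ W) (h2 : ∀ x ∈ W, Q (x - u x) = 0)
    {x : V} (hx : x ∈ W) : u x = x := by
  by_contra hne
  have hs0 : x - u x ≠ 0 := fun h => hne (sub_eq_zero.1 h).symm
  obtain ⟨s', hs', hQs', hss'⟩ := exists_partner hW (h1 x hx) hs0 (h2 x hx)
  have hhyp : Hyp Q (x - u x) s' := ⟨h2 x hx, hQs', hss'⟩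
  have hpol : ∀ y ∈ W, ∀ z ∈ W, polar Q (y - u y) (z - u z) = 0 := by
    intro y hy z hz
    have h3 := h2 _ (W.add_mem hy hz)
    have e1 : y + z - u (y + z) = (y - u y) + (z - u z) := by
      rw [map_add]; abel
    rw [e1, Q_add, h2 y hy, h2 z hz, zero_add, zero_add] at h3
    exact h3
  have hself : polar Q s' (s' - u s') = 0 := by
    have h3 : Q (s' - (s' - u s')) = Q s' := by
      rw [sub_sub_cancel, mem_O.1 hu]
    rw [sub_eq_add_neg, Q_add, QuadraticMap.map_neg, h2 s' hs', polar_neg_right] at h3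
    linear_combination -h3
  have hd0 : s' - u s' = 0 := by
    rw [coord hfin (h1 x hx) hs' hhyp (h1 s' hs'), hself, hpol x hx s' hs']
    simp
  have h4 : polar Q (u x) (u s') = polar Q x s' := polar_map hu x s'
  have h5 : u s' = s' := (sub_eq_zero.1 hd0).symm
  rw [h5] at h4
  rw [polar_sub_left, h4, sub_self] at hss'
  exact zero_ne_one hss'

namespace HCtx'

variable [FiniteDimensional F V]

theorem conn [Finite F] (c : HCtx Q D p e f M) (i : Fin t) : Conn Q (D i) :=
  conn_hyp c.card (c.fin i) (c.he i) (c.hf i) (c.hyp i)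

/-- **The principle of rigid overgroups.** -/
theorem mem_stabFamily [Finite F] (c : HCtx Q D p e f M) (hR : Rigid Q D M) {i j : Fin t} {a : V}
    (ha : a ∈ D i) (hQa : Q a ≠ 0) {m : V ≃ₗ[F] V} (hm : m ∈ M) (hma : m a ∈ D j) :
    m ∈ stabFamily D := by
  refine c.dec.mem_stabFamily_of_forall (k := 2) (by omega) c.fin fun l => ?_
  obtain ⟨b₀, hb₀, hQb₀⟩ := c.exists_norm l (Q a)
  have hmO := c.le_O hm
  have key : ∀ b ∈ D l, Q b = Q a → ∃ j', m b ∈ D j' := by
    intro b hbl hQb
    have hQb0 : Q b ≠ 0 := by rw [hQb]; exact hQa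
    have h1 := c.refl_mem ha hbl hQa hQb0 hQb.symm
    have ha' : Q (m a) ≠ 0 := by rw [mem_O.1 hmO]; exact hQa
    have hb' : Q (m b) ≠ 0 := by rw [mem_O.1 hmO]; exact hQb0
    have h2 := M.mul_mem (M.mul_mem hm h1) (M.inv_mem hm)
    rw [conj_refl_mul_refl hmO hQa hQb0 ha' hb'] at h2
    exact hR j _ hma ha' _ hb' (by rw [mem_O.1 hmO, mem_O.1 hmO, hQb]) h2
  obtain ⟨j₀, hj₀⟩ := key b₀ hb₀ hQb₀
  refine ⟨j₀, fun x hx => ?_⟩
  refine conn c l b₀ hb₀ (by rw [hQb₀]; exact hQa) ((D j₀).comap (m : V →ₗ[F] V)) ?_ hx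
  intro y hy
  induction hy with
  | base => exact hj₀
  | @step c' d hc hd hQd hcd ih =>
    obtain ⟨j', hj'⟩ := key d hd (by rw [hQd, hQb₀])
    by_cases he : j₀ = j'
    · subst he
      exact hj'
    · exfalso
      rw [← polar_map hmO] at hcd
      exact hcd (c.dec.orth j₀ j' he _ ih _ hj')

theorem mem_stabFamily_conj [Finite F] (c : HCtx Q D p e f M) (hR : Rigid Q D M) {g : V ≃ₗ[F] V}
    (hg : g ∈ M) {i j : Fin t} {x : V} (hx : x ∈ (D i).map (g : V →ₗ[F] V)) (hQx : Q x ≠ 0)
    {m : V ≃ₗ[F] V} (hm : m ∈ M) (hmx : m x ∈ (D j).map (g : V →ₗ[F] V)) :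
    m ∈ stabFamily (fun i => (D i).map (g : V →ₗ[F] V)) := by
  obtain ⟨a, ha, rfl⟩ := hx
  obtain ⟨b, hb, hbm⟩ := hmx
  have hQx' : Q (g a) ≠ 0 := hQx
  rw [mem_O.1 (c.le_O hg) a] at hQx'
  refine Cfsg.Agent.H886.Decomp.mem_stabFamily_map ?_
  refine mem_stabFamily c hR (j := j) ha hQx' (M.mul_mem (M.mul_mem (M.inv_mem hg) hm) hg) ?_
  have e : (g⁻¹ * m * g) a = b := by
    show g.symm (m (g a)) = b
    rw [LinearEquiv.symm_apply_eq]
    exact hbm.symm
  rw [e]
  exact hb

theorem sing_of_mem_of_mem [Finite F] (c : HCtx Q D p e f M) (hR : Rigid Q D M) {g : V ≃ₗ[F] V}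
    (hg : g ∈ M) (hgD : g ∉ stabFamily D) {i j : Fin t} {z : V} (hz : z ∈ D j)
    (hgz : g z ∈ D i) : Q (g z) = 0 := by
  by_contra hQ
  rw [mem_O.1 (c.le_O hg)] at hQ
  exact hgD (mem_stabFamily c hR hz hQ hg hgz)

/-- **Full support** of the nonsingular vectors of the members of `g D`. -/
theorem full_support [Finite F] (c : HCtx Q D p e f M) (hR : Rigid Q D M) {g : V ≃ₗ[F] V}
    (hg : g ∈ M) (hgD : g ∉ stabFamily D) {l₀ : Fin t} {v : V} (hv : v ∈ D l₀) (hQv : Q v ≠ 0)
    (i : Fin t) : p i (g v) ≠ 0 := by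
  intro hi
  have hgO := c.le_O hg
  obtain ⟨γ, hγ, hγ1, hγ2⟩ := exists_gamma (F := F) c.card
  have huM := c.tor_mem (c.he i) (c.hf i) (c.hyp i) hγ
  have huO := c.le_O huM
  have hui := tor_left (c.hyp i) hγ
  have hdisp : ∀ x, x - tor (c.hyp i) hγ x ∈ D i := by
    intro x
    rw [tor_apply, add_assoc, sub_add_cancel_left]
    exact (D i).neg_mem ((D i).add_mem ((D i).smul_mem _ (c.he i)) ((D i).smul_mem _ (c.hf i)))
  have hfixv : tor (c.hyp i) hγ (g v) = g v := by
    refine tor_fix _ _ ?_ ?_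
    · rw [c.dec.polar_right i _ (c.he i), hi, polar_zero_right]
    · rw [c.dec.polar_right i _ (c.hf i), hi, polar_zero_right]
  set u := tor (c.hyp i) hγ with hu
  have hgv : g v ∈ (D l₀).map (g : V →ₗ[F] V) := Submodule.mem_map_of_mem hv
  have hQgv : Q (g v) ≠ 0 := by rw [mem_O.1 hgO]; exact hQv
  have hstab := mem_stabFamily_conj c hR hg hgv hQgv huM (j := l₀) (by rw [hfixv]; exact hgv)
  obtain ⟨σ, hσ⟩ := hstab
  have hσ' : ∀ l z, z ∈ D l → ∃ z' ∈ D (σ l), u (g z) = g z' := by
    intro l z hz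
    have h1 : u (g z) ∈ (D (σ l)).map (g : V →ₗ[F] V) := by
      have h2 := hσ l
      simp only at h2
      rw [← h2]
      exact Submodule.mem_map_of_mem (Submodule.mem_map_of_mem hz)
    obtain ⟨z', hz', h2⟩ := h1
    exact ⟨z', hz', h2.symm⟩
  have hei0 : e i ≠ 0 := by
    intro h0
    have := (c.hyp i).pair
    rw [h0, polar_zero_left] at this
    exact zero_ne_one this
  have h' := c.dec.map hgO
  by_cases hfix : ∀ l, σ l = l
  · -- `u` is trivial on all members of `g D`
    have hall : ∀ l z, z ∈ D l → u (g z) = g z := by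
      intro l z hz
      have hnd : NdOn Q ((D l).map (g : V →ₗ[F] V)) := h'.nondegOn c.good.nondeg l
      refine fix_of_sing_disp hnd ?_ huO ?_ ?_ (Submodule.mem_map_of_mem hz)
      · rw [← c.fin l]
        exact LinearEquiv.finrank_map_eq g (D l)
      · rintro _ ⟨x, hx, rfl⟩
        obtain ⟨x', hx', h1⟩ := hσ' l x hx
        rw [hfix l] at hx'
        show g x - u (g x) ∈ _
        rw [h1, ← map_sub]
        exact Submodule.mem_map_of_mem ((D l).sub_mem hx hx')
      · rintro _ ⟨x, hx, rfl⟩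
        obtain ⟨x', hx', h1⟩ := hσ' l x hx
        rw [hfix l] at hx'
        have h2 := hdisp (g x)
        show Q (g x - u (g x)) = 0
        rw [h1, ← map_sub] at h2 ⊢
        exact sing_of_mem_of_mem c hR hg hgD ((D l).sub_mem hx hx') h2
    have hone : ∀ y, u y = y := by
      intro y
      obtain ⟨x, rfl⟩ := g.surjective y
      have h1 : g x = ∑ l, g (p l x) := by rw [← map_sum, c.dec.sum]
      rw [h1, map_sum]
      exact Finset.sum_congr rfl fun l _ => hall l _ (c.dec.mem l x)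
    have h1 := hone (e i)
    rw [hui] at h1
    have h2 : (γ ^ 2 - 1) • e i = 0 := by rw [sub_smul, one_smul, h1, sub_self]
    rcases smul_eq_zero.1 h2 with h | h
    · exact hγ1 (by linear_combination h)
    · exact hei0 h
  · push Not at hfix
    obtain ⟨l, hl⟩ := hfix
    have hinj : ∀ z ∈ D l, g z - u (g z) = 0 → z = 0 := by
      intro z hz h0
      obtain ⟨z', hz', h1⟩ := hσ' l z hz
      rw [h1, ← map_sub] at h0
      have h2 : z - z' = 0 := g.map_eq_zero_iff.1 h0
      refine c.dec.eq_zero_of_mem hl.symm hz ?_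
      rw [sub_eq_zero.1 h2]
      exact hz'
    obtain ⟨y, hy, hy'⟩ := exists_preimage (W₁ := D l) (W₂ := D i) (k := 2) (by omega)
      (c.fin l) (c.fin i) ((g : V →ₗ[F] V) - (u : V →ₗ[F] V) ∘ₗ (g : V →ₗ[F] V))
      (fun z _ => hdisp (g z)) (fun z hz h0 => hinj z hz h0) (c.he i)
    have hye : g y - u (g y) = e i := hy'
    have huei : u (e i) ∈ D i := by rw [hui]; exact (D i).smul_mem _ (c.he i)
    obtain ⟨y₁, hy₁, hy₁'⟩ := exists_preimage (W₁ := D l) (W₂ := D i) (k := 2) (by omega)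
      (c.fin l) (c.fin i) ((g : V →ₗ[F] V) - (u : V →ₗ[F] V) ∘ₗ (g : V →ₗ[F] V))
      (fun z _ => hdisp (g z)) (fun z hz h0 => hinj z hz h0) huei
    have hy₁e : g y₁ - u (g y₁) = u (e i) := hy₁'
    obtain ⟨z, hz, hz'⟩ := hσ' l y hy
    obtain ⟨z₁, hz₁, hz₁'⟩ := hσ' l y₁ hy₁
    obtain ⟨w, hw, hw'⟩ := hσ' (σ l) z hz
    rw [hz₁', ← hye, map_sub, hz', hw', ← map_sub, ← map_sub] at hy₁e
    have hrel : y₁ - z₁ = z - w := g.injective hy₁e
    have hσσ : σ l ≠ σ (σ l) := fun h1 => hl (σ.injective h1).symm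
    -- the `σ l`-component
    have d1 := congrArg (p (σ l)) hrel
    rw [map_sub, map_sub, c.dec.other (σ l) l hl y₁ hy₁, c.dec.self _ z₁ hz₁, c.dec.self _ z hz,
      c.dec.other (σ l) (σ (σ l)) hσσ w hw, sub_zero, zero_sub] at d1
    -- `z = - z₁`, hence `y = - y₁`
    have d2 : y = -y₁ := by
      have h1 : u (g y) = u (g (-y₁)) := by
        rw [map_neg, map_neg, hz', hz₁', ← map_neg, d1]
      exact g.injective (u.injective h1)
    -- the `l`-component
    have d3 := congrArg (p l) hrel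
    rw [map_sub, map_sub, c.dec.self l y₁ hy₁, c.dec.other l (σ l) hl.symm z₁ hz₁,
      c.dec.other l (σ l) hl.symm z hz, sub_zero, zero_sub] at d3
    have hy0 : y ≠ 0 := by
      rintro rfl
      rw [map_zero, map_zero, sub_zero] at hye
      exact hei0 hye.symm
    have hσl : σ (σ l) = l := by
      by_contra hne
      rw [c.dec.other l (σ (σ l)) (Ne.symm hne) w hw, neg_zero] at d3
      rw [d3, neg_zero] at d2
      exact hy0 d2
    rw [hσl] at hw
    rw [c.dec.self l w hw] at d3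
    have d4 : w = y := by rw [d2, d3, neg_neg]
    have h1 : u (e i) = -(e i) := by
      rw [← hye, map_sub, hz', hw', d4]
      abel
    rw [hui] at h1
    have h2 : (γ ^ 2 + 1) • e i = 0 := by rw [add_smul, one_smul, h1]; abel
    rcases smul_eq_zero.1 h2 with h | h
    · exact hγ2 (by linear_combination h)
    · exact hei0 h

/-- A product of two torus elements is a Siegel transformation. -/
theorem tor_eq {a b d : V} (h : Hyp Q a b) (h' : Hyp Q a (b + d)) {δ : F} (hδ : δ ≠ 0)
    (had : polar Q a ((((δ⁻¹) ^ 2) - 1) • d) = 0) :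
    tor h' hδ = tor h hδ * siegel Q a ((((δ⁻¹) ^ 2) - 1) • d) h.left had := by
  have hba : polar Q b a = 1 := by rw [polar_comm]; exact h.pair
  have had' : polar Q a d = 0 := by
    have h1 := h'.pair
    rw [polar_add_right, h.pair] at h1
    linear_combination h1
  have hbd : polar Q b d = - Q d := by
    have h1 := h'.right
    rw [Q_add, h.right] at h1
    linear_combination h1
  ext x
  show tor h' hδ x = tor h hδ (siegel Q a ((((δ⁻¹) ^ 2) - 1) • d) h.left had x)
  rw [tor_apply, siegel_apply, tor_apply, polar_sub_right, polar_sub_right, polar_add_right,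
    polar_sub_right, polar_sub_right, polar_add_right, polar_add_left]
  simp only [polar_smul_right, polar_smul_left, QuadraticMap.map_smul, polar_self_of_sing h.left,
    had', hbd, hba, smul_eq_mul, mul_zero, sub_zero, add_zero, mul_one]
  match_scalars
  · ring
  · field_simp
    ring
  · ring
  · ring

/-- Additive closure of the `δ² - 1`. -/
theorem closure_sq [Finite F] (hF : 7 ≤ Nat.card F) {A : F → Prop}
    (h1 : ∀ δ : F, δ ≠ 0 → A (δ ^ 2 - 1)) (hadd : ∀ x y, A x → A y → A (x + y))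
    (hneg : ∀ x, A x → A (-x)) (x : F) : A x := by
  classical
  have key : ∀ y : F, y ≠ 1 → y ≠ -1 → A y := by
    intro y hy1 hy2
    by_cases h2 : (2 : F) = 0
    · have : Fintype F := Fintype.ofFinite F
      have : CharP F 2 := CharTwo.of_one_ne_zero_of_two_eq_zero one_ne_zero h2
      obtain ⟨r, hr⟩ := FiniteField.isSquare_of_char_two (ringChar.eq F 2) (y + 1)
      have hr0 : r ≠ 0 := by
        rintro rfl
        rw [mul_zero] at hr
        exact hy2 (by linear_combination hr)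
      have h3 := h1 r hr0
      have h4 : r ^ 2 - 1 = y := by linear_combination -hr
      rwa [h4] at h3
    · have h3 := h1 ((y + 1) / 2) (div_ne_zero (fun h => hy2 (by linear_combination h)) h2)
      have h4 := h1 ((y - 1) / 2) (div_ne_zero (fun h => hy1 (by linear_combination h)) h2)
      have h5 := hadd _ _ h3 (hneg _ h4)
      have h6 : ((y + 1) / 2) ^ 2 - 1 + -(((y - 1) / 2) ^ 2 - 1) = y := by
        field_simp
        ring
      rwa [h6] at h5
  obtain ⟨y, hy⟩ := exists_avoid ({1, -1, x - 1, x + 1} : Finset F)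
    (lt_of_le_of_lt Finset.card_le_four (by omega))
  simp only [Finset.mem_insert, Finset.mem_singleton, not_or] at hy
  obtain ⟨hy1, hy2, hy3, hy4⟩ := hy
  have h3 := hadd _ _ (key y hy1 hy2) (key (x - y) (fun h => hy3 (by linear_combination -h))
    (fun h => hy4 (by linear_combination -h)))
  rwa [add_sub_cancel] at h3

/-- **A non-injective projection**: `E Q ≤ M`. -/
theorem E_le_of_proj_eq_zero [Finite F] (c : HCtx Q D p e f M) (hR : Rigid Q D M)
    {g : V ≃ₗ[F] V} (hg : g ∈ M) (hgD : g ∉ stabFamily D) {l₀ i : Fin t} {z : V}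
    (hz : z ∈ D l₀) (hz0 : z ≠ 0) (hpz : p i (g z) = 0) : E Q ≤ M := by
  have hMO := c.le_O
  have hgO := hMO hg
  have hQz : Q z = 0 := by
    by_contra h
    exact full_support c hR hg hgD hz h i hpz
  obtain ⟨z', hz', hQz', hzz'⟩ := exists_partner (c.nd l₀) hz hz0 hQz
  have hhyp : Hyp Q z z' := ⟨hQz, hQz', hzz'⟩
  have hEF : Hyp Q (g z) (g z') := hyp_map hgO hhyp
  have hpz' : p i (g z') ≠ 0 := by
    have h1 := full_support c hR hg hgD ((D l₀).add_mem hz hz') (Q_one_ne hhyp) i
    rwa [map_add, map_add, hpz, zero_add] at h1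
  obtain ⟨γ, hγ, hγ1, hγ2⟩ := exists_gamma (F := F) c.card
  have huM := c.tor_mem (c.he i) (c.hf i) (c.hyp i) hγ
  have huO := hMO huM
  have hperp : ∀ y ∈ D i, polar Q y (g z) = 0 := by
    intro y hy
    rw [c.dec.polar_right i _ hy, hpz, polar_zero_right]
  have huE : tor (c.hyp i) hγ (g z) = g z := tor_fix _ _ (hperp _ (c.he i)) (hperp _ (c.hf i))
  set u := tor (c.hyp i) hγ with hu
  -- the displacement of `g z'`
  obtain ⟨d, hd⟩ : ∃ d, d = u (g z') - g z' := ⟨_, rfl⟩
  have hd' : d = ((γ ^ 2 - 1) * polar Q (f i) (g z')) • e i +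
      (((γ⁻¹) ^ 2 - 1) * polar Q (e i) (g z')) • f i := by
    rw [hd, hu, tor_apply, add_assoc, add_sub_cancel_left]
  have huF : u (g z') = g z' + d := by rw [hd]; abel
  have hEF' : Hyp Q (g z) (g z' + d) := by
    have h1 := hyp_map huO hEF
    rwa [huE, huF] at h1
  have had : polar Q (g z) d = 0 := by
    have h1 := hEF'.pair
    rw [polar_add_right, hEF.pair] at h1
    linear_combination h1
  have hT : ∀ δ : F, δ ≠ 0 → SM M Q (g z) (((δ ^ 2) - 1) • d) := by
    intro δ hδ
    have hδ' : δ⁻¹ ≠ 0 := inv_ne_zero hδ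
    have had' : polar Q (g z) (((((δ⁻¹)⁻¹) ^ 2) - 1) • d) = 0 := by
      rw [polar_smul_right, had, smul_zero]
    have h1 : tor hEF hδ' ∈ M := by
      rw [← tor_conj hgO hhyp hEF hδ']
      exact M.mul_mem (M.mul_mem hg (c.tor_mem hz hz' hhyp hδ')) (M.inv_mem hg)
    have h2 : tor hEF' hδ' ∈ M := by
      have h3 := M.mul_mem (M.mul_mem huM h1) (M.inv_mem huM)
      have h4 : Hyp Q (u (g z)) (u (g z')) := hyp_map huO hEF
      rw [tor_conj huO hEF h4 hδ'] at h3
      have e1 : tor h4 hδ' = tor hEF' hδ' := by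
        ext x
        rw [tor_apply h4, tor_apply hEF', huE, huF]
      rwa [e1] at h3
    rw [tor_eq hEF hEF' hδ' had'] at h2
    have h3 := M.mul_mem (M.inv_mem h1) h2
    rw [inv_mul_cancel_left] at h3
    have h4 : SM M Q (g z) (((((δ⁻¹)⁻¹) ^ 2) - 1) • d) := ⟨hEF.left, had', h3⟩
    rwa [inv_inv] at h4
  have hdT : d ∈ T M Q (g z) hEF.left := by
    intro x
    refine closure_sq (A := fun x => SM M Q (g z) (x • d)) c.card hT ?_ ?_ x
    · intro x y hx hy
      show SM M Q (g z) ((x + y) • d)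
      rw [add_smul]
      exact hx.add hy
    · intro x hx
      show SM M Q (g z) ((-x) • d)
      rw [neg_smul]
      exact hx.neg
  have hK : ∀ w ∈ T M Q (g z) hEF.left, u w ∈ T M Q (g z) hEF.left := by
    intro w hw
    have h1 := T_conj huM huO hw (by rw [huE]; exact hEF.left)
    simpa only [huE] using h1
  have hsplit := torus_split (c.hyp i) hγ hγ1 hγ2 hK hdT
  have hgz0 : g z ≠ 0 := fun h => hz0 (g.map_eq_zero_iff.1 h)
  have hgzi : g z ∉ D i := by
    intro h
    rw [c.dec.self i _ h] at hpz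
    exact hgz0 hpz
  have hfe : polar Q (f i) (e i) = 1 := by rw [polar_comm]; exact (c.hyp i).pair
  have hγ3 : (γ⁻¹) ^ 2 - 1 ≠ 0 := by
    intro h0
    apply hγ1
    have h6 : γ * γ⁻¹ = 1 := mul_inv_cancel₀ hγ
    have h7 : γ ^ 2 * (γ⁻¹) ^ 2 = 1 := by rw [← mul_pow, h6, one_pow]
    linear_combination h7 - γ ^ 2 * h0
  have hγ4 : γ ^ 2 - 1 ≠ 0 := fun h => hγ1 (by linear_combination h)
  have hfd : polar Q (f i) d = (γ ^ 2 - 1) * polar Q (f i) (g z') := by
    rw [hd', polar_add_right, polar_smul_right, polar_smul_right, hfe,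
      polar_self_of_sing (c.hyp i).right]
    simp
  have hed : polar Q (e i) d = ((γ⁻¹) ^ 2 - 1) * polar Q (e i) (g z') := by
    rw [hd', polar_add_right, polar_smul_right, polar_smul_right, (c.hyp i).pair,
      polar_self_of_sing (c.hyp i).left]
    simp
  have hfin : ∀ s ∈ D i, s ≠ 0 → Q s = 0 → s ∈ T M Q (g z) hEF.left → E Q ≤ M := by
    intro s hs hs0 hQs hsT
    exact c.E_le_of_mem_T hs hs0 hQs (T_symm hsT hQs) hgzi
  have hei0 : e i ≠ 0 := by
    intro h0
    have := (c.hyp i).pair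
    rw [h0, polar_zero_left] at this
    exact zero_ne_one this
  have hfi0 : f i ≠ 0 := by
    intro h0
    have := (c.hyp i).pair
    rw [h0, polar_zero_right] at this
    exact zero_ne_one this
  by_cases h1 : polar Q (f i) (g z') = 0
  · have h2 : polar Q (e i) (g z') ≠ 0 := by
      intro h2
      apply hpz'
      rw [coord (c.fin i) (c.he i) (c.hf i) (c.hyp i) (c.dec.mem i (g z')),
        ← c.dec.polar_right i (g z') (c.hf i), ← c.dec.polar_right i (g z') (c.he i), h1, h2]
      simp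
    exact hfin _ (c.hf i) hfi0 (c.hyp i).right (hsplit.2 (by rw [hed]; exact mul_ne_zero hγ3 h2))
  · exact hfin _ (c.he i) hei0 (c.hyp i).left (hsplit.1 (by rw [hfd]; exact mul_ne_zero hγ4 h1))

/-- No two nonsingular components of the same class. -/
theorem false_of_two [Finite F] (c : HCtx Q D p e f M) (hR : Rigid Q D M) {g : V ≃ₗ[F] V}
    (hg : g ∈ M)
    (hinj : ∀ l₀ i, ∀ z ∈ D l₀, p i (g z) = 0 → z = 0) {l₀ i j : Fin t} (hij : i ≠ j) {v : V}
    (hv : v ∈ D l₀) (hQv : Q v ≠ 0) (hQi : Q (p i (g v)) ≠ 0) {m : F} (hm : m ≠ 0)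
    (hmij : m ^ 2 * Q (p i (g v)) = Q (p j (g v))) : False := by
  have hMO := c.le_O
  have hgO := hMO hg
  obtain ⟨l, hli, hlj⟩ := c.exists_third i j
  -- the vectors orthogonal to the components
  have hex : ∀ r : Fin t, ∃ a ∈ D r, polar Q a (g v) = 0 ∧ Q a = -(Q (p r (g v))) := by
    intro r
    have hcr := coord (c.fin r) (c.he r) (c.hf r) (c.hyp r) (c.dec.mem r (g v))
    rw [← c.dec.polar_right r (g v) (c.hf r), ← c.dec.polar_right r (g v) (c.he r)] at hcr
    refine ⟨polar Q (f r) (g v) • e r + (-(polar Q (e r) (g v))) • f r,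
      (D r).add_mem ((D r).smul_mem _ (c.he r)) ((D r).smul_mem _ (c.hf r)), ?_, ?_⟩
    · rw [polar_add_left, polar_smul_left, polar_smul_left]
      simp only [smul_eq_mul]
      ring
    · rw [hcr, Q_comb (c.hyp r), Q_comb (c.hyp r)]
      ring
  obtain ⟨a, ha, hav, hQa⟩ := hex i
  obtain ⟨b, hb, hbv, hQb⟩ := hex j
  have hma : m • a ∈ D i := (D i).smul_mem _ ha
  have hmav : polar Q (m • a) (g v) = 0 := by rw [polar_smul_left, hav, smul_zero]
  have hQma : Q (m • a) = Q b := by
    rw [QuadraticMap.map_smul, hQa, hQb, ← hmij, smul_eq_mul]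
    ring
  have hQb0 : Q b ≠ 0 := by
    rw [hQb, ← hmij]
    exact neg_ne_zero.2 (mul_ne_zero (pow_ne_zero 2 hm) hQi)
  have hQma0 : Q (m • a) ≠ 0 := by rw [hQma]; exact hQb0
  have huM := c.refl_mem hma hb hQma0 hQb0 hQma
  set u := refl Q (m • a) hQma0 * refl Q b hQb0 with hu
  have hu_apply : ∀ x, u x = refl Q (m • a) hQma0 (refl Q b hQb0 x) := fun x => rfl
  have huv : u (g v) = g v := by
    rw [hu_apply, refl_apply hQb0, hbv, mul_zero, zero_smul, sub_zero, refl_apply, hmav, mul_zero,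
      zero_smul, sub_zero]
  have hgv : g v ∈ (D l₀).map (g : V →ₗ[F] V) := Submodule.mem_map_of_mem hv
  have hQgv : Q (g v) ≠ 0 := by rw [mem_O.1 hgO]; exact hQv
  have hstab := mem_stabFamily_conj c hR hg hgv hQgv huM (j := l₀) (by rw [huv]; exact hgv)
  obtain ⟨σ, hσ⟩ := hstab
  have hσ' : ∀ l z, z ∈ D l → ∃ z' ∈ D (σ l), u (g z) = g z' := by
    intro l z hz
    have h1 : u (g z) ∈ (D (σ l)).map (g : V →ₗ[F] V) := by
      have h2 := hσ l
      simp only at h2
      rw [← h2]
      exact Submodule.mem_map_of_mem (Submodule.mem_map_of_mem hz)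
    obtain ⟨z', hz', h2⟩ := h1
    exact ⟨z', hz', h2.symm⟩
  have hσ₀ : σ l₀ = l₀ := by
    by_contra hne
    obtain ⟨z', hz', h1⟩ := hσ' l₀ v hv
    rw [huv] at h1
    have h3 : v = z' := g.injective h1
    rw [← h3] at hz'
    exact ne_zero_of_Q hQv (c.dec.eq_zero_of_mem hne hz' hv)
  have hdisp : ∀ x, x - u x = ((Q b)⁻¹ * polar Q b x) • b +
      ((Q (m • a))⁻¹ * polar Q (m • a) x) • (m • a) := by
    intro x
    rw [hu_apply, refl_apply hQb0, refl_apply hQma0, polar_sub_right, polar_smul_right,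
      c.dec.orth i j hij _ hma _ hb, smul_zero, sub_zero]
    abel
  have hid : ∀ y ∈ D l₀, u (g y) = g y := by
    intro y hy
    obtain ⟨z, hz, hyz⟩ := hσ' l₀ y hy
    rw [hσ₀] at hz
    have h1 : p l (g (y - z)) = 0 := by
      rw [map_sub, ← hyz, hdisp, map_add, map_smul, map_smul, c.dec.other l j hlj b hb,
        c.dec.other l i hli _ hma]
      simp
    have h2 := hinj l₀ l _ ((D l₀).sub_mem hy hz) h1
    rw [hyz, sub_eq_zero.1 h2]
  have hma0 : m • a ≠ 0 := ne_zero_of_Q hQma0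
  have hperp : ∀ y ∈ D l₀, polar Q (m • a) (g y) = 0 := by
    intro y hy
    have h1 := hdisp (g y)
    rw [hid y hy, sub_self] at h1
    have h2 := congrArg (p i) h1
    rw [map_zero, map_add, map_smul, map_smul, c.dec.other i j hij b hb, smul_zero, zero_add,
      c.dec.self i _ hma] at h2
    rcases smul_eq_zero.1 h2.symm with h | h
    · rcases mul_eq_zero.1 h with h | h
      · exact absurd (inv_eq_zero.1 h) hQma0
      · exact h
    · exact absurd h hma0
  apply hma0
  refine c.nd i _ hma fun y hy => ?_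
  obtain ⟨x, hx, hx'⟩ := exists_preimage (W₁ := D l₀) (W₂ := D i) (k := 2) (by omega)
    (c.fin l₀) (c.fin i) ((p i) ∘ₗ (g : V →ₗ[F] V)) (fun z _ => c.dec.mem i _)
    (fun z hz h0 => hinj l₀ i z hz h0) hy
  have hx'' : p i (g x) = y := hx'
  have h1 := hperp x hx
  rwa [c.dec.polar_right i (g x) hma, hx''] at h1

/-- A binary form vanishing at three points vanishes. -/
theorem quad_zero {A B C x y z : F} (hxy : x ≠ y) (hxz : x ≠ z) (hyz : y ≠ z)
    (h1 : A + x * B + x ^ 2 * C = 0) (h2 : A + y * B + y ^ 2 * C = 0)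
    (h3 : A + z * B + z ^ 2 * C = 0) : A = 0 ∧ B = 0 ∧ C = 0 := by
  have hxy' : x - y ≠ 0 := sub_ne_zero.2 hxy
  have hxz' : x - z ≠ 0 := sub_ne_zero.2 hxz
  have hyz' : y - z ≠ 0 := sub_ne_zero.2 hyz
  have h4 : B + (x + y) * C = 0 := by
    have : (x - y) * (B + (x + y) * C) = 0 := by linear_combination h1 - h2
    exact (mul_eq_zero.1 this).resolve_left hxy'
  have h5 : B + (x + z) * C = 0 := by
    have : (x - z) * (B + (x + z) * C) = 0 := by linear_combination h1 - h3
    exact (mul_eq_zero.1 this).resolve_left hxz'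
  have hC : C = 0 := by
    have : (y - z) * C = 0 := by linear_combination h4 - h5
    exact (mul_eq_zero.1 this).resolve_left hyz'
  have hB : B = 0 := by rw [hC] at h4; linear_combination h4
  refine ⟨?_, hB, hC⟩
  rw [hB, hC] at h1
  linear_combination h1

/-- **Rigid overgroups**, hyperbolic planes. -/
theorem le_or_le [Finite F] (c : HCtx Q D p e f M) (ht : 4 ≤ t) (hR : Rigid Q D M) :
    M ≤ stabFamily D ∨ E Q ≤ M := by
  classical
  by_cases hE : E Q ≤ M
  · exact Or.inr hE
  left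
  intro g hg
  by_contra hgD
  have hgO := c.le_O hg
  have hcard := c.card
  have hinj : ∀ l₀ i, ∀ z ∈ D l₀, p i (g z) = 0 → z = 0 := by
    intro l₀ i z hz h
    by_contra hz0
    exact hE (E_le_of_proj_eq_zero c hR hg hgD hz hz0 h)
  let l₀ : Fin t := ⟨0, by omega⟩
  obtain ⟨v, hvdef⟩ : ∃ v : F → V, v = fun z => e l₀ + z • f l₀ := ⟨_, rfl⟩
  have hv : ∀ z, v z ∈ D l₀ := fun z => by
    rw [hvdef]
    exact (D l₀).add_mem (c.he l₀) ((D l₀).smul_mem _ (c.hf l₀))
  have hQv : ∀ z, Q (v z) = z := by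
    intro z
    have := Q_comb (c.hyp l₀) 1 z
    rw [hvdef]
    rwa [one_smul, one_mul] at this
  have hexp : ∀ i z, Q (p i (g (v z))) = Q (p i (g (e l₀))) +
      z * polar Q (p i (g (e l₀))) (p i (g (f l₀))) + z ^ 2 * Q (p i (g (f l₀))) := by
    intro i z
    rw [hvdef]
    show Q (p i (g (e l₀ + z • f l₀))) = _
    rw [map_add, map_add, map_smul, map_smul, Q_add, QuadraticMap.map_smul, polar_smul_right]
    simp only [smul_eq_mul]
    ring
  -- at most two nonsingular components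
  have hS : ∀ z, z ≠ 0 → (Finset.univ.filter fun i => ¬ Q (p i (g (v z))) = 0).card ≤ 2 := by
    intro z hz
    by_contra hcon
    push Not at hcon
    obtain ⟨i, hi, j, hj, l, hl, hij, hil, hjl⟩ := Finset.two_lt_card.1 hcon
    simp only [Finset.mem_filter, Finset.mem_univ, true_and] at hi hj hl
    have hQvz : Q (v z) ≠ 0 := by rw [hQv]; exact hz
    rcases exists_sq_of_three hi hj hl with ⟨m, hm, h⟩ | ⟨m, hm, h⟩ | ⟨m, hm, h⟩
    · exact false_of_two c hR hg hinj hij (hv z) hQvz hi hm h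
    · exact false_of_two c hR hg hinj hil (hv z) hQvz hi hm h
    · exact false_of_two c hR hg hinj hjl (hv z) hQvz hj hm h
  have : Fintype F := Fintype.ofFinite F
  -- at most two zeros for every index
  have hZ : ∀ i, ((Finset.univ.erase (0 : F)).filter fun z => Q (p i (g (v z))) = 0).card ≤ 2 := by
    intro i
    by_contra hcon
    push Not at hcon
    obtain ⟨x, hx, y, hy, z, hz, hxy, hxz, hyz⟩ := Finset.two_lt_card.1 hcon
    simp only [Finset.mem_filter, hexp] at hx hy hz
    obtain ⟨hA, hB, hC⟩ := quad_zero hxy hxz hyz hx.2 hy.2 hz.2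
    have hall : ∀ z ∈ D l₀, Q (p i (g z)) = 0 := by
      intro z hz
      rw [coord (c.fin l₀) (c.he l₀) (c.hf l₀) (c.hyp l₀) hz, map_add, map_add, map_smul, map_smul,
        map_smul, map_smul, Q_add, QuadraticMap.map_smul, QuadraticMap.map_smul, polar_smul_left,
        polar_smul_right, hA, hB, hC]
      simp
    obtain ⟨z, hz, hz'⟩ := exists_preimage (W₁ := D l₀) (W₂ := D i) (k := 2) (by omega)
      (c.fin l₀) (c.fin i) ((p i) ∘ₗ (g : V →ₗ[F] V)) (fun z _ => c.dec.mem i _)
      (fun z hz h0 => hinj l₀ i z hz h0) ((D i).add_mem (c.he i) (c.hf i))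
    have hz'' : p i (g z) = e i + f i := hz'
    have h1 := hall z hz
    rw [hz'', Q_one (c.hyp i)] at h1
    exact one_ne_zero h1
  -- double counting
  have hcount := Finset.sum_card_bipartiteAbove_eq_sum_card_bipartiteBelow
    (s := (Finset.univ : Finset (Fin t))) (t := Finset.univ.erase (0 : F))
    (fun i z => Q (p i (g (v z))) = 0)
  have h1 : ∑ i : Fin t, (Finset.bipartiteAbove (fun i z => Q (p i (g (v z))) = 0)
      (Finset.univ.erase (0 : F)) i).card ≤ t * 2 := by
    have h2 := Finset.sum_le_card_nsmul (Finset.univ : Finset (Fin t))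
      (fun i => (Finset.bipartiteAbove (fun i z => Q (p i (g (v z))) = 0)
        (Finset.univ.erase (0 : F)) i).card) 2 (fun i _ => hZ i)
    rwa [Finset.card_univ, Fintype.card_fin, smul_eq_mul] at h2
  have h3 : (Finset.univ.erase (0 : F)).card * (t - 2) ≤
      ∑ z ∈ Finset.univ.erase (0 : F), (Finset.bipartiteBelow
        (fun (i : Fin t) z => Q (p i (g (v z))) = 0) Finset.univ z).card := by
    have h2 := Finset.card_nsmul_le_sum (Finset.univ.erase (0 : F))
      (fun z => (Finset.bipartiteBelow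
        (fun (i : Fin t) z => Q (p i (g (v z))) = 0) Finset.univ z).card) (t - 2) (fun z hz => ?_)
    · rwa [smul_eq_mul] at h2
    · have h4 := hS z (Finset.ne_of_mem_erase hz)
      have h5 := Finset.card_filter_add_card_filter_not (s := (Finset.univ : Finset (Fin t)))
        (fun i => Q (p i (g (v z))) = 0)
      rw [Finset.card_univ, Fintype.card_fin] at h5
      show t - 2 ≤ (Finset.univ.filter fun i => Q (p i (g (v z))) = 0).card
      omega
  rw [Finset.card_erase_of_mem (Finset.mem_univ _), Finset.card_univ,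
    ← Nat.card_eq_fintype_card] at h3
  have h6 : 6 * (t - 2) ≤ (Nat.card F - 1) * (t - 2) := Nat.mul_le_mul_right _ (by omega)
  omega

end HCtx'

end Cfsg.Agent.H885.HypRigid
end

-- part: H886/HypPl
section
/-!
Hyperbolic planes of a quadratic space over a finite field with at least seven elements.
-/

set_option autoImplicit false

namespace Cfsg.Agent.H886.HypPl

open QuadraticMap Cfsg.Agent.LieClassical.OrthCore Cfsg.Agent.LieClassical.OrthTrans
  Cfsg.Agent.LieClassical.OrthFinite Cfsg.Agent.LieClassical.OrthSimple Cfsg.Agent.H883.Bridge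
  Cfsg.Agent.H883.Root Cfsg.Agent.H883.Sub Cfsg.Agent.H886.Decomp Cfsg.Agent.H886.Rigid
  Cfsg.Agent.H886.Plane

section Scalars

variable {F : Type*} [Field F]

omit [Field F] in
/-- Avoiding few scalars. -/
theorem exists_notMem [Finite F] (S : Finset F) (hS : S.card < Nat.card F) : ∃ x, x ∉ S := by
  have := Fintype.ofFinite F
  by_contra hc
  push Not at hc
  have : S = Finset.univ := Finset.eq_univ_iff_forall.2 hc
  rw [this, Finset.card_univ, Nat.card_eq_fintype_card] at hS
  exact lt_irrefl _ hS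

/-- The roots of a monic quadratic polynomial. -/
theorem exists_roots (b c : F) : ∃ B : Finset F, B.card ≤ 2 ∧ ∀ x, x * x + b * x + c = 0 → x ∈ B := by
  classical
  by_cases h : ∃ r, r * r + b * r + c = 0
  · obtain ⟨r, hr⟩ := h
    refine ⟨{r, -b - r}, Finset.card_le_two, fun x hx => ?_⟩
    have h1 : (x - r) * (x + r + b) = 0 := by linear_combination hx - hr
    rcases mul_eq_zero.1 h1 with h2 | h2
    · rw [sub_eq_zero.1 h2]; simp
    · have : x = -b - r := by linear_combination h2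
      rw [this]; simp
  · push Not at h
    exact ⟨∅, by simp, fun x hx => absurd hx (h x)⟩

end Scalars

variable {F V : Type*} [Field F] [AddCommGroup V] [Module F V] {Q : QuadraticForm F V}
  {W W' : Submodule F V}

/-- `W` is a hyperbolic plane with hyperbolic pair `e, f`. -/
structure HB (Q : QuadraticForm F V) (W : Submodule F V) (e f : V) : Prop where
  he : e ∈ W
  hf : f ∈ W
  Qe : Q e = 0
  Qf : Q f = 0
  ef : polar Q e f = 1
  span : ∀ y ∈ W, ∃ a b : F, y = a • e + b • f

namespace HB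

variable {e f : V}

theorem fe (h : HB Q W e f) : polar Q f e = 1 := by rw [polar_comm]; exact h.ef

theorem symm (h : HB Q W e f) : HB Q W f e where
  he := h.hf
  hf := h.he
  Qe := h.Qf
  Qf := h.Qe
  ef := h.fe
  span y hy := by
    obtain ⟨a, b, rfl⟩ := h.span y hy
    exact ⟨b, a, add_comm _ _⟩

theorem mem (h : HB Q W e f) (a b : F) : a • e + b • f ∈ W :=
  W.add_mem (W.smul_mem _ h.he) (W.smul_mem _ h.hf)

theorem Q_eq (h : HB Q W e f) (a b : F) : Q (a • e + b • f) = a * b := by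
  rw [Q_add, QuadraticMap.map_smul, QuadraticMap.map_smul, h.Qe, h.Qf, polar_smul_left,
    polar_smul_right, h.ef]
  simp

theorem polar_eq (h : HB Q W e f) (a b c d : F) :
    polar Q (a • e + b • f) (c • e + d • f) = a * d + b * c := by
  rw [polar_add_left, polar_add_right, polar_add_right]
  simp only [polar_smul_left, polar_smul_right, polar_self_of_sing h.Qe, polar_self_of_sing h.Qf,
    h.ef, h.fe, smul_eq_mul]
  ring

theorem e_ne (h : HB Q W e f) : e ≠ 0 := by
  rintro rfl
  have := h.ef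
  rw [polar_zero_left] at this
  exact zero_ne_one this

theorem coords (h : HB Q W e f) {a b : F} (h0 : a • e + b • f = 0) : a = 0 ∧ b = 0 := by
  constructor
  · have := congrArg (fun x => polar Q x f) h0
    simp only [polar_zero_left] at this
    rw [polar_add_left, polar_smul_left, polar_smul_left, h.ef, polar_self_of_sing h.Qf] at this
    simpa using this
  · have := congrArg (fun x => polar Q x e) h0
    simp only [polar_zero_left] at this
    rw [polar_add_left, polar_smul_left, polar_smul_left, h.fe, polar_self_of_sing h.Qe] at this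
    simpa using this

theorem rank (h : HB Q W e f) : Module.finrank F W = 2 := by
  have hli : LinearIndependent F ![(⟨e, h.he⟩ : W), ⟨f, h.hf⟩] := by
    rw [LinearIndependent.pair_iff]
    intro s t hst
    exact h.coords (congrArg Subtype.val hst)
  have hspan : Submodule.span F (Set.range ![(⟨e, h.he⟩ : W), ⟨f, h.hf⟩]) = ⊤ := by
    rw [eq_top_iff]
    rintro ⟨y, hy⟩ -
    rw [Matrix.range_cons, Matrix.range_cons, Matrix.range_empty, Set.union_empty,
      Set.singleton_union, Submodule.mem_span_pair]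
    obtain ⟨a, b, hab⟩ := h.span y hy
    exact ⟨a, b, Subtype.ext hab.symm⟩
  rw [← finrank_top, ← hspan, finrank_span_eq_card hli, Fintype.card_fin]

theorem refl_apply' (h : HB Q W e f) {a b : F} (ha : a ≠ 0) (hb : b ≠ 0)
    (hQ : Q (a • e + b • f) ≠ 0) (x y : F) :
    refl Q (a • e + b • f) hQ (x • e + y • f) = (-(a / b) * y) • e + (-(b / a) * x) • f := by
  rw [refl_apply, h.Q_eq, h.polar_eq]
  match_scalars
  · field_simp
    ring
  · field_simp
    ring

/-- The vectors of norm `v` other than those proportional or orthogonal to a given one. -/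
theorem exists_other [Finite F] (hq : 7 ≤ Nat.card F) (h : HB Q W e f) {x : V} (hx : x ∈ W)
    (hQx : Q x ≠ 0) : ∃ y ∈ W, Q y = Q x ∧ polar Q x y ≠ 0 ∧ ∀ c : F, y ≠ c • x := by
  classical
  obtain ⟨a, b, rfl⟩ := h.span x hx
  rw [h.Q_eq] at hQx ⊢
  have ha : a ≠ 0 := left_ne_zero_of_mul hQx
  have hb : b ≠ 0 := right_ne_zero_of_mul hQx
  obtain ⟨B, hB, hB'⟩ := exists_roots (F := F) 0 1
  obtain ⟨l, hl⟩ := exists_notMem ({0, 1, -1} ∪ B) (lt_of_le_of_lt (Finset.card_union_le _ _) (by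
    have : ({0, 1, -1} : Finset F).card ≤ 3 := Finset.card_le_three
    omega))
  simp only [Finset.mem_union, Finset.mem_insert, Finset.mem_singleton, not_or] at hl
  obtain ⟨⟨hl0, hl1, hl2⟩, hl3⟩ := hl
  refine ⟨(l * a) • e + (l⁻¹ * b) • f, h.mem _ _, ?_, ?_, ?_⟩
  · rw [h.Q_eq]
    field_simp
  · rw [h.polar_eq]
    intro h0
    apply hl3
    apply hB'
    have h1 : (a * b) * (l * l + 1) = 0 := by
      field_simp at h0
      linear_combination h0
    linear_combination (mul_eq_zero.1 h1).resolve_left (mul_ne_zero ha hb)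
  · intro c hc
    have h0 : (l * a - c * a) • e + (l⁻¹ * b - c * b) • f = 0 := by
      have : (l * a - c * a) • e + (l⁻¹ * b - c * b) • f =
        ((l * a) • e + (l⁻¹ * b) • f) - c • (a • e + b • f) := by module
      rw [this, ← hc, sub_self]
    obtain ⟨h1, h2⟩ := h.coords h0
    have h3 : l = c := mul_right_cancel₀ ha (by linear_combination h1)
    have h4 : l⁻¹ = c := mul_right_cancel₀ hb (by linear_combination h2)
    have h5 : l * l = 1 := by
      rw [← h3] at h4
      field_simp at h4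
      linear_combination -h4
    rcases mul_self_eq_one_iff.1 h5 with h6 | h6
    · exact hl1 h6
    · exact hl2 h6

theorem exists_value (h : HB Q W e f) (v : F) : Q (e + v • f) = v := by
  have := h.Q_eq 1 v
  rwa [one_smul, one_mul] at this

theorem conn [Finite F] (hq : 7 ≤ Nat.card F) (h : HB Q W e f) {v : F} (hv : v ≠ 0) :
    Conn Q W v := by
  classical
  refine ⟨{y | y ∈ W ∧ Q y = v}, ⟨_, W.add_mem h.he (W.smul_mem v h.hf), h.exists_value v⟩,
    fun b hb => hb, ?_, ?_⟩
  · have hQx : Q (e + v • f) ≠ 0 := by rw [h.exists_value]; exact hv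
    have hx : e + v • f ∈ W := W.add_mem h.he (W.smul_mem v h.hf)
    obtain ⟨y, hy, hQy, -, hyx⟩ := h.exists_other hq hx hQx
    have hfd : FiniteDimensional F W := Module.finite_of_finrank_pos (by rw [h.rank]; omega)
    have hli : LinearIndependent F ![(⟨e + v • f, hx⟩ : W), (⟨y, hy⟩ : W)] := by
      rw [LinearIndependent.pair_iff' (fun h0 => hQx (by
        have := congrArg Subtype.val h0
        simp only at this
        rw [this]
        exact QuadraticMap.map_zero Q))]
      intro c hc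
      exact hyx c (congrArg Subtype.val hc).symm
    have hspan := hli.span_eq_top_of_card_eq_finrank (by rw [h.rank]; rfl)
    intro z hz
    have hz' : (⟨z, hz⟩ : W) ∈ Submodule.span F (Set.range ![(⟨e + v • f, hx⟩ : W),
        (⟨y, hy⟩ : W)]) := by
      rw [hspan]; exact Submodule.mem_top
    rw [Matrix.range_cons, Matrix.range_cons, Matrix.range_empty, Set.union_empty,
      Set.singleton_union, Submodule.mem_span_pair] at hz'
    obtain ⟨l, m, hlm⟩ := hz'
    have e1 : z = l • (e + v • f) + m • y := (congrArg Subtype.val hlm).symm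
    rw [e1]
    exact Submodule.add_mem _ (Submodule.smul_mem _ _ (Submodule.subset_span ⟨hx, h.exists_value v⟩))
      (Submodule.smul_mem _ _ (Submodule.subset_span ⟨hy, by rw [hQy]; exact h.exists_value v⟩))
  · rintro b ⟨hb, hQb⟩ c ⟨hc, hQc⟩
    obtain ⟨b1, b2, rfl⟩ := h.span b hb
    obtain ⟨c1, c2, rfl⟩ := h.span c hc
    rw [h.Q_eq] at hQb hQc
    have hb1 : b1 ≠ 0 := by rintro rfl; rw [zero_mul] at hQb; exact hv hQb.symm
    have hc1 : c1 ≠ 0 := by rintro rfl; rw [zero_mul] at hQc; exact hv hQc.symm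
    obtain ⟨B, hB, hB'⟩ := exists_roots (F := F) 0 (b1 * b1)
    obtain ⟨C, hC, hC'⟩ := exists_roots (F := F) 0 (c1 * c1)
    obtain ⟨l, hl⟩ := exists_notMem ({0} ∪ (B ∪ C)) (lt_of_le_of_lt (Finset.card_union_le _ _) (by
      have := Finset.card_union_le B C
      rw [Finset.card_singleton]
      omega))
    simp only [Finset.mem_union, Finset.mem_singleton, not_or] at hl
    obtain ⟨hl0, hlB, hlC⟩ := hl
    refine ⟨l • e + (v / l) • f, ⟨h.mem _ _, by rw [h.Q_eq]; field_simp⟩, ?_, ?_⟩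
    · rw [h.polar_eq]
      intro h0
      apply hlB
      apply hB'
      have h1 : b2 * (l * l + 0 * l + b1 * b1) = 0 := by
        rw [← hQb] at h0
        field_simp at h0
        linear_combination h0
      rcases mul_eq_zero.1 h1 with h2 | h2
      · rw [h2, mul_zero] at hQb
        exact absurd hQb.symm hv
      · exact h2
    · rw [h.polar_eq]
      intro h0
      apply hlC
      apply hC'
      have h1 : c2 * (l * l + 0 * l + c1 * c1) = 0 := by
        rw [← hQc] at h0
        field_simp at h0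
        linear_combination h0
      rcases mul_eq_zero.1 h1 with h2 | h2
      · rw [h2, mul_zero] at hQc
        exact absurd hQc.symm hv
      · exact h2

/-- **An additive group containing a nonzero vector of a hyperbolic plane and closed under the
reflections of the plane contains the plane.** -/
theorem mem_of_closed [Finite F] (hq : 7 ≤ Nat.card F) (h : HB Q W e f) (A : AddSubgroup V)
    (hA : ∀ c ∈ W, ∀ hc : Q c ≠ 0, ∀ y ∈ A, y ∈ W → refl Q c hc y ∈ A) {w : V} (hwA : w ∈ A)
    (hw : w ∈ W) (hw0 : w ≠ 0) {z : V} (hz : z ∈ W) : z ∈ A := by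
  classical
  -- the action of the torus and the swap
  have hswap : ∀ x y : F, x • e + y • f ∈ A → (-y) • e + (-x) • f ∈ A := by
    intro x y hxy
    have hQ : Q ((1 : F) • e + (1 : F) • f) ≠ 0 := by
      rw [h.Q_eq, one_mul]; exact one_ne_zero
    have := hA _ (h.mem 1 1) hQ _ hxy (h.mem x y)
    rw [h.refl_apply' one_ne_zero one_ne_zero] at this
    simpa using this
  have htor : ∀ l x y : F, l ≠ 0 → x • e + y • f ∈ A → (l * x) • e + (l⁻¹ * y) • f ∈ A := by
    intro l x y hl hxy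
    have h1 := hswap x y hxy
    have hQ : Q (l • e + (1 : F) • f) ≠ 0 := by
      rw [h.Q_eq, mul_one]; exact hl
    have := hA _ (h.mem l 1) hQ _ h1 (h.mem _ _)
    rw [h.refl_apply' hl one_ne_zero] at this
    have e1 : (-(l / 1) * -x) • e + (-(1 / l) * -y) • f = (l * x) • e + (l⁻¹ * y) • f := by
      congr 2
      · ring
      · field_simp
    rwa [e1] at this
  -- a singular vector
  obtain ⟨a, ha0, ha⟩ : ∃ a : F, a ≠ 0 ∧ a • e ∈ A := by
    obtain ⟨a, b, rfl⟩ := h.span w hw
    by_cases hb : b = 0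
    · subst hb
      rw [zero_smul, add_zero] at hwA hw0
      exact ⟨a, fun h0 => hw0 (by rw [h0, zero_smul]), hwA⟩
    by_cases ha : a = 0
    · subst ha
      have := hswap 0 b hwA
      rw [neg_zero, zero_smul, add_zero] at this
      exact ⟨-b, neg_ne_zero.2 hb, this⟩
    obtain ⟨B, hB, hB'⟩ := exists_roots (F := F) 1 1
    obtain ⟨u, hu⟩ := exists_notMem ({0, -1} ∪ B) (lt_of_le_of_lt (Finset.card_union_le _ _) (by
      have : ({0, -1} : Finset F).card ≤ 2 := Finset.card_le_two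
      omega))
    simp only [Finset.mem_union, Finset.mem_insert, Finset.mem_singleton, not_or] at hu
    obtain ⟨⟨hu0, hu1⟩, huB⟩ := hu
    have hu1' : 1 + u ≠ 0 := fun h0 => hu1 (by linear_combination h0)
    have hu2 : u * u + 1 * u + 1 ≠ 0 := fun h0 => huB (hB' u h0)
    have h1 := htor u⁻¹ a b (inv_ne_zero hu0) hwA
    have h2 := htor (1 + u)⁻¹ a b (inv_ne_zero hu1') hwA
    have h3 := A.sub_mem (A.add_mem hwA h1) h2
    have e1 : a • e + b • f + ((u⁻¹ * a) • e + (u⁻¹⁻¹ * b) • f) -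
        (((1 + u)⁻¹ * a) • e + ((1 + u)⁻¹⁻¹ * b) • f) =
        (a * (u * u + 1 * u + 1) / (u * (1 + u))) • e := by
      rw [inv_inv, inv_inv]
      match_scalars
      · field_simp
        ring
      · ring
    rw [e1] at h3
    exact ⟨_, div_ne_zero (mul_ne_zero ha hu2) (mul_ne_zero hu0 hu1'), h3⟩
  have hall : ∀ c : F, c • e ∈ A := by
    intro c
    by_cases hc : c = 0
    · rw [hc, zero_smul]; exact A.zero_mem
    have := htor (c * a⁻¹) a 0 (mul_ne_zero hc (inv_ne_zero ha0)) (by rwa [zero_smul, add_zero])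
    rw [mul_zero, zero_smul, add_zero, mul_assoc, inv_mul_cancel₀ ha0, mul_one] at this
    exact this
  have hall' : ∀ c : F, c • f ∈ A := by
    intro c
    have := hswap (-c) 0 (by rw [zero_smul, add_zero]; exact hall _)
    rw [neg_zero, zero_smul, zero_add, neg_neg] at this
    exact this
  obtain ⟨a, b, rfl⟩ := h.span z hz
  exact A.add_mem (hall a) (hall' b)

/-- **The pair lemma** for nonsingular vectors of hyperbolic planes. -/
theorem exists_pair_sing [Finite F] (hq : 7 ≤ Nat.card F) {e' f' : V} (h : HB Q W e f)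
    (h' : HB Q W' e' f') {x x' : V} (hx : x ∈ W) (hQx : Q x ≠ 0) (hx' : x' ∈ W') (hQx' : Q x' ≠ 0) :
    ∃ c ∈ W, ∃ c' ∈ W', Q c ≠ 0 ∧ Q c' ≠ 0 ∧ polar Q c x = Q c ∧ polar Q c' x' = Q c' ∧
      Q c + Q c' = 0 := by
  classical
  obtain ⟨a, b, rfl⟩ := h.span x hx
  obtain ⟨a', b', rfl⟩ := h'.span x' hx'
  rw [h.Q_eq] at hQx
  rw [h'.Q_eq] at hQx'
  set n := a * b with hn
  set n' := a' * b' with hn'
  obtain ⟨B, hB, hB'⟩ := exists_roots (F := F) 0 (n' / n)
  obtain ⟨m, hm⟩ := exists_notMem ({0, 1, -(n' / n)} ∪ B) (lt_of_le_of_lt (Finset.card_union_le _ _)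
    (by
      have : ({0, 1, -(n' / n)} : Finset F).card ≤ 3 := Finset.card_le_three
      omega))
  simp only [Finset.mem_union, Finset.mem_insert, Finset.mem_singleton, not_or] at hm
  obtain ⟨⟨hm0, hm1, hm2⟩, hm3⟩ := hm
  have hd : n * m * m + n' ≠ 0 := by
    intro h0
    apply hm3
    apply hB'
    field_simp
    linear_combination h0
  have hnum : n * m + n' ≠ 0 := by
    intro h0
    apply hm2
    field_simp
    linear_combination h0
  obtain ⟨v, hv'⟩ : ∃ v : F, v * (n * m * m + n') = n * m + n' :=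
    ⟨(n * m + n') / (n * m * m + n'), div_mul_cancel₀ _ hd⟩
  have hv0 : v ≠ 0 := by
    rintro rfl
    rw [zero_mul] at hv'
    exact hnum hv'.symm
  have hv1 : 1 - v ≠ 0 := by
    intro h0
    have h1 : v = 1 := by linear_combination -h0
    rw [h1, one_mul] at hv'
    have h2 : n * (m * (m - 1)) = 0 := by linear_combination hv'
    have h3 := (mul_eq_zero.1 h2).resolve_left hQx
    rcases mul_eq_zero.1 h3 with h4 | h4
    · exact hm0 h4
    · exact hm1 (by linear_combination h4)
  have hw0 : m * v ≠ 0 := mul_ne_zero hm0 hv0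
  have hw1 : 1 - m * v ≠ 0 := by
    intro h0
    have h1 : m * v = 1 := by linear_combination -h0
    have h2 : n' * (m - 1) = 0 := by
      have : m * v * (n * m * m + n') = m * (n * m + n') := by rw [mul_assoc, hv']
      rw [h1] at this
      linear_combination -this
    have h3 := (mul_eq_zero.1 h2).resolve_left hQx'
    exact hm1 (by linear_combination h3)
  have ha : a ≠ 0 := left_ne_zero_of_mul hQx
  have hb : b ≠ 0 := right_ne_zero_of_mul hQx
  have ha' : a' ≠ 0 := left_ne_zero_of_mul hQx'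
  have hb' : b' ≠ 0 := right_ne_zero_of_mul hQx'
  have hkey : n * (m * (1 - m * v)) + n' * (1 - v) = 0 := by linear_combination -hv'
  refine ⟨(a / v) • e + (b / (1 - v)) • f, h.mem _ _,
    (a' / (m * v)) • e' + (b' / (1 - m * v)) • f', h'.mem _ _, ?_, ?_, ?_, ?_, ?_⟩
  · rw [h.Q_eq]
    exact mul_ne_zero (div_ne_zero ha hv0) (div_ne_zero hb hv1)
  · rw [h'.Q_eq]
    exact mul_ne_zero (div_ne_zero ha' hw0) (div_ne_zero hb' hw1)
  · rw [h.Q_eq, h.polar_eq]
    field_simp
    ring
  · rw [h'.Q_eq, h'.polar_eq]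
    field_simp
    ring
  · rw [h.Q_eq, h'.Q_eq]
    have e1 : a / v * (b / (1 - v)) = n / (v * (1 - v)) := by rw [hn]; field_simp
    have e2 : a' / (m * v) * (b' / (1 - m * v)) = n' / (m * v * (1 - m * v)) := by
      rw [hn']; field_simp
    rw [e1, e2, div_add_div _ _ (mul_ne_zero hv0 hv1) (mul_ne_zero hw0 hw1), div_eq_zero_iff]
    left
    linear_combination v * hkey

end HB

end Cfsg.Agent.H886.HypPl
end

-- part: H886/HypNonRigid
section
/-!
Non-rigid overgroups of the stabiliser of an orthogonal decomposition into hyperbolic planes contain `E Q`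
(at least six members, `|F| ≥ 7`).
-/

set_option autoImplicit false
set_option linter.unusedSectionVars false
set_option linter.unusedVariables false

namespace Cfsg.Agent.H886.HypNonRigid

open QuadraticMap Cfsg.Agent.LieClassical.OrthCore Cfsg.Agent.LieClassical.OrthTrans
  Cfsg.Agent.LieClassical.OrthFinite Cfsg.Agent.LieClassical.OrthSimple Cfsg.Agent.H883.Bridge
  Cfsg.Agent.H883.Root Cfsg.Agent.H883.Sub Cfsg.Agent.H886.Decomp Cfsg.Agent.H886.Rigid
  Cfsg.Agent.H886.PlaneRigid Cfsg.Agent.H886.DecTools Cfsg.Agent.H886.HypPl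
open Cfsg.Agent.H886.PlaneNonRigid (Linked linked_move linked_refl has_of_move exists_notMem_finset
  refl_mul_refl_factor refl_pair_apply hasGroup has_other)

variable {F V : Type*} [Field F] [AddCommGroup V] [Module F V] {Q : QuadraticForm F V} {t : ℕ}
  {D : Fin t → Submodule F V} {p : Fin t → V →ₗ[F] V} {M : Subgroup (V ≃ₗ[F] V)}

/-- Coordinates in a plane. -/
theorem exists_coords {W : Submodule F V} (hW : Module.finrank F W = 2) {a b : V} (ha : a ∈ W)
    (hb : b ∈ W) (ha0 : a ≠ 0) (hab : ∀ c : F, b ≠ c • a) {z : V} (hz : z ∈ W) :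
    ∃ l m : F, z = l • a + m • b := by
  have hfd : FiniteDimensional F W := Module.finite_of_finrank_pos (by rw [hW]; omega)
  have hli : LinearIndependent F ![(⟨a, ha⟩ : W), (⟨b, hb⟩ : W)] := by
    rw [LinearIndependent.pair_iff' (fun h => ha0 (congrArg Subtype.val h))]
    intro c hc
    exact hab c (congrArg Subtype.val hc).symm
  have hspan := hli.span_eq_top_of_card_eq_finrank (by rw [hW]; rfl)
  have hz' : (⟨z, hz⟩ : W) ∈ Submodule.span F (Set.range ![(⟨a, ha⟩ : W), (⟨b, hb⟩ : W)]) := by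
    rw [hspan]; exact Submodule.mem_top
  rw [Matrix.range_cons, Matrix.range_cons, Matrix.range_empty, Set.union_empty,
    Set.singleton_union, Submodule.mem_span_pair] at hz'
  obtain ⟨l, m, hlm⟩ := hz'
  exact ⟨l, m, (congrArg Subtype.val hlm).symm⟩

/-- Reflections in vectors of `D i` fix the other members pointwise. -/
theorem refl_fix (h : Dec Q D p) {i m : Fin t} (hm : m ≠ i) {a : V} (ha : a ∈ D i) (hQa : Q a ≠ 0)
    {z : V} (hz : z ∈ D m) : refl Q a hQa z = z := by
  rw [refl_apply, h.orth i m (Ne.symm hm) a ha z hz, mul_zero, zero_smul, sub_zero]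

/-- The product of the reflections in two independent vectors of a plane fixes no nonzero vector of the
plane. -/
theorem eq_zero_of_fix {W : Submodule F V} (hW : Module.finrank F W = 2) (hnd : NondegOn Q W)
    {a b : V} (ha : a ∈ W) (hb : b ∈ W) (hQa : Q a ≠ 0) (hQb : Q b ≠ 0)
    (hab : ∀ c : F, b ≠ c • a) {z : V} (hz : z ∈ W) (h : refl Q a hQa (refl Q b hQb z) = z) :
    z = 0 := by
  have ha0 : a ≠ 0 := by
    rintro rfl
    exact hQa (QuadraticMap.map_zero Q)
  have h1 : refl Q b hQb z = refl Q a hQa z := by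
    have := congrArg (refl Q a hQa) h
    have e : ∀ x, refl Q a hQa (refl Q a hQa x) = x := fun x =>
      LinearEquiv.congr_fun (refl_mul_self hQa) x
    rwa [e] at this
  rw [refl_apply, refl_apply] at h1
  have h2 : ((Q b)⁻¹ * polar Q b z) • b = ((Q a)⁻¹ * polar Q a z) • a := sub_right_injective h1
  have hbz : polar Q b z = 0 := by
    by_contra hne
    have hc : (Q b)⁻¹ * polar Q b z ≠ 0 := mul_ne_zero (inv_ne_zero hQb) hne
    apply hab (((Q b)⁻¹ * polar Q b z)⁻¹ * ((Q a)⁻¹ * polar Q a z))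
    rw [mul_smul, ← h2, smul_smul, inv_mul_cancel₀ hc, one_smul]
  rw [hbz, mul_zero, zero_smul] at h2
  have haz : polar Q a z = 0 := by
    have := (smul_eq_zero.1 h2.symm).resolve_right ha0
    exact (mul_eq_zero.1 this).resolve_left (inv_ne_zero hQa)
  refine hnd z hz fun y hy => ?_
  obtain ⟨l, m, rfl⟩ := exists_coords hW ha hb ha0 hab hy
  rw [polar_comm, polar_add_left, polar_smul_left, polar_smul_left, haz, hbz]
  simp

section Planes

variable [Finite F] [FiniteDimensional F V]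

/-- Two independent vectors of norm `1`, neither orthogonal. -/
theorem HB.exists_pair (hq : 7 ≤ Nat.card F) {W : Submodule F V} {e f : V} (h : HB Q W e f) :
    ∃ a ∈ W, ∃ b ∈ W, Q a ≠ 0 ∧ Q b = Q a ∧ polar Q a b ≠ 0 ∧ ∀ c : F, b ≠ c • a := by
  have hQ : Q (e + (1 : F) • f) ≠ 0 := by rw [h.exists_value]; exact one_ne_zero
  have hm : e + (1 : F) • f ∈ W := W.add_mem h.he (W.smul_mem _ h.hf)
  obtain ⟨y, hy, hQy, h1, h2⟩ := h.exists_other hq hm hQ
  exact ⟨_, hm, y, hy, hQ, hQy, h1, h2⟩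

theorem rep (hD : ∀ i, ∃ e f, HB Q (D i) e f) : ∀ m : Fin t, ∀ v : F, v ≠ 0 → ∃ y ∈ D m, Q y = v := by
  intro m v _
  obtain ⟨e, f, h⟩ := hD m
  exact ⟨e + v • f, (D m).add_mem h.he ((D m).smul_mem _ h.hf), h.exists_value v⟩

/-- One Siegel transformation at `s` with nonzero component in `D j` gives all those with second vector in
`D j`, if `s` has no component in two members `D j` and `D l`. -/
theorem has_member (hq : 7 ≤ Nat.card F) (hG : Good Q) (h : Dec Q D p)
    (hD : ∀ i, ∃ e f, HB Q (D i) e f)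
    (hMO : M ≤ O Q) (hH : stabFamily D ⊓ E Q ≤ M) {s w₀ : V} {j l : Fin t} (hjl : j ≠ l)
    (hsj : p j s = 0) (hsl : p l s = 0) (hw : Has Q M s w₀) (hwj : p j w₀ ≠ 0) {w : V}
    (hwD : w ∈ D j) : Has Q M s w := by
  obtain ⟨e, f, hef⟩ := hD j
  obtain ⟨a, ha, a', ha', hQa, hQa', haa, hind⟩ := HB.exists_pair hq hef
  have hQa0' : Q a' ≠ 0 := by rw [hQa']; exact hQa
  have fixs : ∀ c (hc : c ∈ D j) (hQc : Q c ≠ 0), refl Q c hQc s = s := by
    intro c hc hQc
    rw [refl_apply, h.polar_right j s hc, hsj, polar_zero_right, mul_zero, zero_smul, sub_zero]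
  have fixs' : ∀ c (hc : c ∈ D l) (hQc : Q c ≠ 0), refl Q c hQc s = s := by
    intro c hc hQc
    rw [refl_apply, h.polar_right l s hc, hsl, polar_zero_right, mul_zero, zero_smul, sub_zero]
  have h1 := hw.map (g := refl Q a hQa * refl Q a' hQa0')
    ((O Q).mul_mem (refl_mem_O _) (refl_mem_O _))
    (hH (h.refl_mul_refl_mem hG ha ha' hQa hQa0' hQa'.symm))
  have e1 : (refl Q a hQa * refl Q a' hQa0') s = s := by
    show refl Q a hQa (refl Q a' hQa0' s) = s
    rw [fixs a' ha', fixs a ha]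
  rw [e1] at h1
  have h2 := hw.sub h1
  set z := w₀ - (refl Q a hQa * refl Q a' hQa0') w₀ with hz
  have hcomp : ∀ m, p m ((refl Q a hQa * refl Q a' hQa0') w₀) =
      if m = j then refl Q a hQa (refl Q a' hQa0' (p j w₀)) else p m w₀ := by
    intro m
    show p m (refl Q a hQa (refl Q a' hQa0' w₀)) = _
    split_ifs with hm
    · subst hm
      rw [h.proj_refl ha, h.proj_refl ha']
    · rw [h.proj_refl_ne hm ha, h.proj_refl_ne hm ha']
  have hzD : z ∈ D j := by
    refine h.mem_of fun m hm => ?_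
    rw [hz, map_sub, hcomp, if_neg hm, sub_self]
  have hz0 : z ≠ 0 := by
    intro h0
    have h3 := congrArg (p j) h0
    rw [hz, map_sub, hcomp, if_pos rfl, map_zero, sub_eq_zero] at h3
    exact hwj (eq_zero_of_fix hef.rank (h.nondegOn hG.nondeg j) ha ha' hQa hQa0' hind (h.mem j w₀)
      h3.symm)
  refine hef.mem_of_closed hq (hasGroup Q M hw.sing) ?_ (w := z) h2 hzD hz0 hwD
  intro c hc hQc y hy hyD
  obtain ⟨c', hc', hQc'⟩ := rep hD l (Q c) hQc
  have hQc0' : Q c' ≠ 0 := by rw [hQc']; exact hQc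
  have h3 := Has.map (show Has Q M s y from hy) (g := refl Q c hQc * refl Q c' hQc0')
    ((O Q).mul_mem (refl_mem_O _) (refl_mem_O _))
    (hH (h.refl_mul_refl_mem hG hc hc' hQc hQc0' hQc'.symm))
  have e3 : (refl Q c hQc * refl Q c' hQc0') s = s := by
    show refl Q c hQc (refl Q c' hQc0' s) = s
    rw [fixs' c' hc', fixs c hc]
  have e4 : (refl Q c hQc * refl Q c' hQc0') y = refl Q c hQc y := by
    show refl Q c hQc (refl Q c' hQc0' y) = refl Q c hQc y
    rw [refl_apply (v := c'), h.orth l j hjl.symm c' hc' y hyD, mul_zero, zero_smul, sub_zero]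
  rw [e3, e4] at h3
  exact h3

/-- In a hyperbolic plane the vectors orthogonal to a nonzero singular vector are its multiples. -/
theorem HB.eq_smul_of_perp {W : Submodule F V} {e f : V} (h : HB Q W e f) {s z : V} (hs : s ∈ W)
    (hs0 : s ≠ 0) (hQs : Q s = 0) (hz : z ∈ W) (hsz : polar Q s z = 0) : ∃ c : F, z = c • s := by
  obtain ⟨a, b, rfl⟩ := h.span s hs
  obtain ⟨c, d, rfl⟩ := h.span z hz
  rw [h.Q_eq] at hQs
  rw [h.polar_eq] at hsz
  rcases mul_eq_zero.1 hQs with ha | hb
  · subst ha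
    have hb : b ≠ 0 := by
      rintro rfl
      exact hs0 (by simp)
    rw [zero_mul, zero_add] at hsz
    have hc : c = 0 := (mul_eq_zero.1 hsz).resolve_left hb
    refine ⟨d / b, ?_⟩
    rw [hc, smul_add, smul_smul, smul_smul, mul_zero, div_mul_cancel₀ _ hb]
  · subst hb
    have ha : a ≠ 0 := by
      rintro rfl
      exact hs0 (by simp)
    rw [zero_mul, add_zero] at hsz
    have hd : d = 0 := (mul_eq_zero.1 hsz).resolve_left ha
    refine ⟨c / a, ?_⟩
    rw [hd, smul_add, smul_smul, smul_smul, mul_zero, div_mul_cancel₀ _ ha]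

/-- **A Siegel transformation at a singular vector of a member generates everything.** -/
theorem E_le_of_has (hq : 7 ≤ Nat.card F) (hG : Good Q) (h : Dec Q D p)
    (hD : ∀ i, ∃ e f, HB Q (D i) e f)
    (hiso : ∀ i j, ∃ e : D i ≃ₗ[F] D j, ∀ z : D i, Q (e z : V) = Q (z : V)) (ht : 4 ≤ t)
    (hMO : M ≤ O Q) (hH : stabFamily D ⊓ E Q ≤ M) {i : Fin t} {s w : V} (hs : s ∈ D i)
    (hs0 : s ≠ 0) (hw : Has Q M s w) (hws : ∀ c : F, w ≠ c • s) : E Q ≤ M := by
  classical
  obtain ⟨e, f, hef⟩ := hD i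
  have hQs := hw.sing
  have hps : ∀ j, j ≠ i → p j s = 0 := fun j hj => h.other j i hj s hs
  obtain ⟨j, hji, hj⟩ : ∃ j, j ≠ i ∧ p j w ≠ 0 := by
    by_contra hc
    push Not at hc
    obtain ⟨c, hc'⟩ := HB.eq_smul_of_perp hef hs hs0 hQs (h.mem_of hc) hw.perp
    exact hws c hc'
  obtain ⟨l, hl⟩ := exists_notMem_finset ({i, j} : Finset (Fin t))
    (lt_of_le_of_lt Finset.card_le_two (by omega))
  simp only [Finset.mem_insert, Finset.mem_singleton, not_or] at hl
  have hJ : ∀ z ∈ D j, Has Q M s z := fun z hz =>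
    has_member hq hG h hD hMO hH (Ne.symm hl.2) (hps j hji) (hps l hl.1) hw hj hz
  have hall : ∀ m, m ≠ i → ∀ z ∈ D m, Has Q M s z := by
    intro m hm z hz
    by_cases hmj : m = j
    · subst hmj
      exact hJ z hz
    obtain ⟨l', hl'⟩ := exists_notMem_finset ({i, j, m} : Finset (Fin t))
      (lt_of_le_of_lt Finset.card_le_three (by omega))
    simp only [Finset.mem_insert, Finset.mem_singleton, not_or] at hl'
    exact has_other hG h hiso (rep hD) hMO hH hmj hl'.2.1 (hps m hm) (hps j hji) (hps l' hl'.1) hJ hz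
  have hfull : Full Q M s := by
    refine ⟨hQs, fun z hz => ?_⟩
    have hpz : polar Q s (p i z) = 0 := by rw [← h.polar_right i z hs]; exact hz
    obtain ⟨c, hc⟩ := HB.eq_smul_of_perp hef hs hs0 hQs (h.mem i z) hpz
    have hsum : ∀ S : Finset (Fin t), i ∉ S → Has Q M s (∑ m ∈ S, p m z) := by
      intro S
      induction S using Finset.induction_on with
      | empty =>
        intro _
        rw [Finset.sum_empty]
        exact has_zero hQs
      | insert m S hm ih =>
        intro hiS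
        simp only [Finset.mem_insert, not_or] at hiS
        rw [Finset.sum_insert hm]
        exact (hall m (Ne.symm hiS.1) _ (h.mem m z)).add (ih hiS.2)
    have hz' : z = (∑ m ∈ Finset.univ.erase i, p m z) + c • s := by
      rw [← hc, Finset.sum_erase_add _ _ (Finset.mem_univ i), h.sum]
    rw [hz']
    exact (hsum _ (Finset.notMem_erase i _)).add (has_self hQs c)
  -- an opposite vector
  have hQc : Q (e + (1 : F) • f) ≠ 0 := by rw [hef.exists_value]; exact one_ne_zero
  have hcD : e + (1 : F) • f ∈ D i := (D i).add_mem hef.he ((D i).smul_mem _ hef.hf)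
  have hcs : polar Q (e + (1 : F) • f) s ≠ 0 := by
    intro h0
    obtain ⟨c, hc⟩ := HB.eq_smul_of_perp hef hs hs0 hQs hcD (by rw [polar_comm]; exact h0)
    rw [hc, QuadraticMap.map_smul, hQs, smul_zero] at hQc
    exact hQc rfl
  set c₀ := e + (1 : F) • f with hc₀
  obtain ⟨c', hc', hQc'⟩ := rep hD l (Q c₀) hQc
  have hQc0' : Q c' ≠ 0 := by rw [hQc']; exact hQc
  have hF' := hfull.map (g := refl Q c₀ hQc * refl Q c' hQc0')
    ((O Q).mul_mem (refl_mem_O _) (refl_mem_O _))
    (hH (h.refl_mul_refl_mem hG hcD hc' hQc hQc0' hQc'.symm))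
  have e1 : (refl Q c₀ hQc * refl Q c' hQc0') s = refl Q c₀ hQc s := by
    show refl Q c₀ hQc (refl Q c' hQc0' s) = _
    congr 1
    rw [refl_apply, h.orth l i hl.1 c' hc' s hs, mul_zero, zero_smul, sub_zero]
  rw [e1] at hF'
  refine E_le_of_full_pair hG hfull hF' ?_
  rw [refl_apply, polar_sub_right, polar_self', hQs, polar_smul_right, polar_comm Q s c₀, smul_eq_mul,
    mul_zero, zero_sub]
  exact neg_ne_zero.2 (mul_ne_zero (mul_ne_zero (inv_ne_zero hQc) hcs) hcs)

/-- A linked vector with a nonzero singular component generates everything. -/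
theorem E_le_of_sing_comp (hq : 7 ≤ Nat.card F) (hG : Good Q) (h : Dec Q D p)
    (hD : ∀ i, ∃ e f, HB Q (D i) e f)
    (hiso : ∀ i j, ∃ e : D i ≃ₗ[F] D j, ∀ z : D i, Q (e z : V) = Q (z : V)) (ht : 4 ≤ t)
    (hMO : M ≤ O Q) (hH : stabFamily D ⊓ E Q ≤ M) {x : V} (hx : Linked Q D M x) {i : Fin t}
    (hi : p i x ≠ 0) (hQi : Q (p i x) = 0) : E Q ≤ M := by
  classical
  obtain ⟨hQx, -⟩ := id hx
  -- a hyperbolic basis with `p i x = a • e`
  obtain ⟨e, f, hef, a, hax⟩ : ∃ e f, HB Q (D i) e f ∧ ∃ a : F, p i x = a • e := by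
    obtain ⟨e, f, hef⟩ := hD i
    obtain ⟨a, b, hab⟩ := hef.span _ (h.mem i x)
    rw [hab, hef.Q_eq] at hQi
    rcases mul_eq_zero.1 hQi with h0 | h0
    · exact ⟨f, e, hef.symm, b, by rw [hab, h0, zero_smul, zero_add]⟩
    · exact ⟨e, f, hef, a, by rw [hab, h0, zero_smul, add_zero]⟩
  obtain ⟨l, hl⟩ := exists_notMem ({0, 1, -1} : Finset F)
    (lt_of_le_of_lt Finset.card_le_three (by omega))
  simp only [Finset.mem_insert, Finset.mem_singleton, not_or] at hl
  obtain ⟨hl0, hl1, hl2⟩ := hl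
  have hll : 1 - l * l ≠ 0 := by
    intro h0
    rcases mul_self_eq_one_iff.1 (show l * l = 1 by linear_combination -h0) with h1 | h1
    · exact hl1 h1
    · exact hl2 h1
  have hQ1 : Q ((1 : F) • e + (1 : F) • f) ≠ 0 := by
    rw [hef.Q_eq, mul_one]; exact one_ne_zero
  have hQ2 : Q (l • e + l⁻¹ • f) ≠ 0 := by
    rw [hef.Q_eq, mul_inv_cancel₀ hl0]; exact one_ne_zero
  have hg := h.refl_mul_refl_mem hG (hef.mem l l⁻¹) (hef.mem 1 1) hQ2 hQ1
    (by rw [hef.Q_eq, hef.Q_eq, mul_inv_cancel₀ hl0, mul_one])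
  set g := refl Q (l • e + l⁻¹ • f) hQ2 * refl Q ((1 : F) • e + (1 : F) • f) hQ1 with hgdef
  have hgi : g (p i x) = (l * l) • p i x := by
    show refl Q (l • e + l⁻¹ • f) hQ2 (refl Q ((1 : F) • e + (1 : F) • f) hQ1 (p i x)) = _
    have e0 : p i x = a • e + (0 : F) • f := by rw [hax, zero_smul, add_zero]
    rw [e0, hef.refl_apply' one_ne_zero one_ne_zero, hef.refl_apply' hl0 (inv_ne_zero hl0)]
    match_scalars
    · field_simp
    · ring
  have hgx : g x = x - (1 - l * l) • p i x := by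
    refine h.ext fun m => ?_
    have hcomp : p m (g x) = g (p m x) := by
      by_cases hm : m = i
      · subst hm
        show p m (refl Q _ hQ2 (refl Q _ hQ1 x)) = refl Q _ hQ2 (refl Q _ hQ1 (p m x))
        rw [h.proj_refl (hef.mem l l⁻¹), h.proj_refl (hef.mem 1 1)]
      · show p m (refl Q _ hQ2 (refl Q _ hQ1 x)) = refl Q _ hQ2 (refl Q _ hQ1 (p m x))
        rw [h.proj_refl_ne hm (hef.mem l l⁻¹), h.proj_refl_ne hm (hef.mem 1 1),
          refl_fix h hm (hef.mem 1 1) hQ1 (h.mem m x), refl_fix h hm (hef.mem l l⁻¹) hQ2 (h.mem m x)]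
    rw [hcomp, map_sub, map_smul]
    by_cases hm : m = i
    · subst hm
      rw [h.self m _ (h.mem m x), hgi]
      module
    · rw [h.other m i hm _ (h.mem i x), smul_zero, sub_zero]
      show refl Q _ hQ2 (refl Q _ hQ1 (p m x)) = p m x
      rw [refl_fix h hm (hef.mem 1 1) hQ1 (h.mem m x), refl_fix h hm (hef.mem l l⁻¹) hQ2 (h.mem m x)]
  have hQs : Q ((1 - l * l) • p i x) = 0 := by rw [QuadraticMap.map_smul, hQi, smul_zero]
  have hsx : polar Q ((1 - l * l) • p i x) x = 0 := by
    rw [polar_smul_left, h.polar_right i x (h.mem i x), polar_self_of_sing hQi, smul_zero]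
  have hhas := has_of_move h hG hMO hH hx hg hgx hQs hsx
  refine E_le_of_has hq hG h hD hiso ht hMO hH ((D i).smul_mem _ (h.mem i x))
    (smul_ne_zero hll hi) hhas ?_
  intro c hc
  have h1 : Q ((-(Q x)⁻¹) • x) = 0 := by rw [hc, QuadraticMap.map_smul, hQs, smul_zero]
  rw [QuadraticMap.map_smul, smul_eq_mul] at h1
  exact (mul_ne_zero (mul_ne_zero (neg_ne_zero.2 (inv_ne_zero hQx)) (neg_ne_zero.2
    (inv_ne_zero hQx))) hQx) h1

end Planes

end Cfsg.Agent.H886.HypNonRigid
end

-- part: H886/HypNonRigid2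
section
/-!
Non-rigid overgroups of the stabiliser of an orthogonal decomposition into hyperbolic planes contain `E Q`
(at least six members, `|F| ≥ 7`), second part.
-/

set_option autoImplicit false
set_option linter.unusedSectionVars false
set_option linter.unusedVariables false

namespace Cfsg.Agent.H886.HypNonRigid

open QuadraticMap Cfsg.Agent.LieClassical.OrthCore Cfsg.Agent.LieClassical.OrthTrans
  Cfsg.Agent.LieClassical.OrthFinite Cfsg.Agent.LieClassical.OrthSimple Cfsg.Agent.H883.Bridge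
  Cfsg.Agent.H883.Root Cfsg.Agent.H883.Sub Cfsg.Agent.H886.Decomp Cfsg.Agent.H886.Rigid
  Cfsg.Agent.H886.PlaneRigid Cfsg.Agent.H886.DecTools Cfsg.Agent.H886.HypPl
open Cfsg.Agent.H886.PlaneNonRigid (Linked linked_move linked_refl has_of_move exists_notMem_finset
  refl_mul_refl_factor refl_pair_apply hasGroup has_other)

variable {F V : Type*} [Field F] [AddCommGroup V] [Module F V] {Q : QuadraticForm F V} {t : ℕ}
  {D : Fin t → Submodule F V} {p : Fin t → V →ₗ[F] V} {M : Subgroup (V ≃ₗ[F] V)}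

/-- In a hyperbolic plane the difference of two distinct vectors of the same nonzero norm is nonsingular. -/
theorem HB.Q_sub_ne {W : Submodule F V} {e f : V} (h : HB Q W e f) {x y : V} (hx : x ∈ W)
    (hy : y ∈ W) (hQx : Q x ≠ 0) (hQ : Q y = Q x) (hne : x ≠ y) : Q (x - y) ≠ 0 := by
  obtain ⟨a, b, rfl⟩ := h.span x hx
  obtain ⟨c, d, rfl⟩ := h.span y hy
  rw [h.Q_eq] at hQx hQ
  rw [h.Q_eq] at hQ
  have ha : a ≠ 0 := left_ne_zero_of_mul hQx
  have hb : b ≠ 0 := right_ne_zero_of_mul hQx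
  have e1 : a • e + b • f - (c • e + d • f) = (a - c) • e + (b - d) • f := by module
  rw [e1, h.Q_eq]
  intro h0
  apply hne
  rcases mul_eq_zero.1 h0 with h1 | h1
  · have hac : a = c := by linear_combination h1
    have hbd : b = d := by
      apply mul_left_cancel₀ ha
      rw [← hQ, hac]
    rw [hac, hbd]
  · have hbd : b = d := by linear_combination h1
    have hac : a = c := by
      apply mul_right_cancel₀ hb
      rw [← hQ, hbd]
    rw [hac, hbd]

section Planes

variable [Finite F] [FiniteDimensional F V]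

/-- A linked vector outside the members leads to one with three nonzero components, or to everything. -/
theorem exists_three (hq : 7 ≤ Nat.card F) (hG : Good Q) (h : Dec Q D p)
    (hD : ∀ i, ∃ e f, HB Q (D i) e f)
    (hiso : ∀ i j, ∃ e : D i ≃ₗ[F] D j, ∀ z : D i, Q (e z : V) = Q (z : V)) (ht : 4 ≤ t)
    (hMO : M ≤ O Q) (hH : stabFamily D ⊓ E Q ≤ M) {x : V} (hx : Linked Q D M x)
    (hxD : ∀ i, x ∉ D i) (hns : ∀ i, p i x ≠ 0 → Q (p i x) ≠ 0) :
    ∃ x', Linked Q D M x' ∧ ∃ i j l, i ≠ j ∧ i ≠ l ∧ j ≠ l ∧ p i x' ≠ 0 ∧ p j x' ≠ 0 ∧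
      p l x' ≠ 0 := by
  obtain ⟨hQx, -⟩ := id hx
  obtain ⟨i, hi⟩ : ∃ i, p i x ≠ 0 := by
    by_contra hc
    push Not at hc
    rw [h.eq_zero hc, QuadraticMap.map_zero] at hQx
    exact hQx rfl
  obtain ⟨j, hji, hj⟩ := h.exists_ne (hxD i)
  by_cases hl : ∃ l, l ≠ i ∧ l ≠ j ∧ p l x ≠ 0
  · obtain ⟨l, hli, hlj, hl⟩ := hl
    exact ⟨x, hx, i, j, l, hji.symm, hli.symm, hlj.symm, hi, hj, hl⟩
  push Not at hl
  obtain ⟨l, hlS⟩ := exists_notMem_finset ({i, j} : Finset (Fin t))
    (lt_of_le_of_lt Finset.card_le_two (by omega))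
  obtain ⟨m, hmS⟩ := exists_notMem_finset ({i, j, l} : Finset (Fin t))
    (lt_of_le_of_lt Finset.card_le_three (by omega))
  simp only [Finset.mem_insert, Finset.mem_singleton, not_or] at hlS hmS
  obtain ⟨hli, hlj⟩ := hlS
  obtain ⟨hmi, hmj, hml⟩ := hmS
  have hxs : x = p i x + p j x := by
    refine h.ext fun k => ?_
    rw [map_add]
    by_cases hki : k = i
    · subst hki
      rw [h.self k _ (h.mem k x), h.other k j hji.symm _ (h.mem j x), add_zero]
    by_cases hkj : k = j
    · subst hkj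
      rw [h.self k _ (h.mem k x), h.other k i hki _ (h.mem i x), zero_add]
    rw [h.other k i hki _ (h.mem i x), h.other k j hkj _ (h.mem j x), hl k hki hkj, add_zero]
  -- a vector `y` of the same norm as `p i x`
  obtain ⟨e₀, f₀, hef⟩ := hD i
  obtain ⟨y, hy, hQy, h1, h2⟩ := hef.exists_other hq (h.mem i x) (hns i hi)
  have hcm : p i x - y ∈ D i := (D i).sub_mem (h.mem i x) hy
  have hQc : Q (p i x - y) ≠ 0 := HB.Q_sub_ne hef (h.mem i x) hy (hns i hi) hQy (fun h0 =>
    h2 1 (by rw [one_smul]; exact h0.symm))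
  have hr := refl_sub_apply hQy hQc
  obtain ⟨e, he⟩ := hiso j l
  obtain ⟨τ, hτO, hτD, hτ0, hτj, -⟩ := DecTools.exists_swap h (Ne.symm hlj) e he
  have hgO : τ * refl Q (p i x - y) hQc ∈ O Q := (O Q).mul_mem hτO (refl_mem_O hQc)
  have hgD : τ * refl Q (p i x - y) hQc ∈ stabFamily D :=
    (stabFamily D).mul_mem hτD (h.refl_mem_stabFamily hcm hQc)
  obtain ⟨g, hgH, hg⟩ := exists_mem h hG m (rep hD m) hgO hgD
  have hxm : p m x = 0 := hl m hmi hmj
  set z : V := τ (p j x) with hz
  have hzl : z ∈ D l := by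
    rw [hz, hτj _ (h.mem j x)]
    exact Submodule.coe_mem _
  have hz0 : z ≠ 0 := by
    intro h0
    rw [hz] at h0
    exact hj (by rwa [LinearEquiv.map_eq_zero_iff] at h0)
  have hgx : g x = y + z := by
    rw [hg x hxm]
    show τ (refl Q (p i x - y) hQc x) = y + z
    have e1 : refl Q (p i x - y) hQc x = y + p j x := by
      have e2 : refl Q (p i x - y) hQc x = refl Q (p i x - y) hQc (p i x + p j x) :=
        congrArg _ hxs
      rw [e2, map_add, hr, refl_apply, h.orth i j hji.symm _ hcm _ (h.mem j x), mul_zero, zero_smul,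
        sub_zero]
    rw [e1, map_add, hτ0 y (h.other j i hji y hy) (h.other l i hli y hy)]
  have hQgx : Q (g x) ≠ 0 := by rw [mem_O.1 (E_le_O hgH.2)]; exact hQx
  refine ⟨_, linked_refl h hG hMO hH hx hgH hQgx, i, j, l, hji.symm, Ne.symm hli, Ne.symm hlj, ?_,
    ?_, ?_⟩
  all_goals rw [refl_apply, map_sub, map_smul]
  all_goals
    have hpol : polar Q (g x) x = polar Q y (p i x) := by
      rw [hgx, polar_add_left, h.polar_right i x hy, h.polar_right l x hzl, hl l hli hlj,
        polar_zero_right, add_zero]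
    have hκ : (Q (g x))⁻¹ * polar Q (g x) x ≠ 0 := by
      refine mul_ne_zero (inv_ne_zero hQgx) ?_
      rw [hpol, polar_comm]
      exact h1
    generalize (Q (g x))⁻¹ * polar Q (g x) x = κ at hκ ⊢
  · rw [hgx, map_add, h.self i y hy, h.other i l (Ne.symm hli) z hzl, add_zero]
    intro h0
    rw [sub_eq_zero] at h0
    apply h2 κ⁻¹
    rw [h0, smul_smul, inv_mul_cancel₀ hκ, one_smul]
  · rw [hgx, map_add, h.other j i hji y hy, h.other j l (Ne.symm hlj) z hzl, add_zero, smul_zero,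
      sub_zero]
    exact hj
  · rw [hl l hli hlj, hgx, map_add, h.other l i hli y hy, h.self l z hzl, zero_add, zero_sub]
    exact neg_ne_zero.2 (smul_ne_zero hκ hz0)

/-- **A linked vector with three nonsingular components gives a Siegel transformation.** -/
theorem exists_siegel (hq : 7 ≤ Nat.card F) (hG : Good Q) (h : Dec Q D p)
    (hD : ∀ i, ∃ e f, HB Q (D i) e f) (ht : 5 ≤ t)
    (hMO : M ≤ O Q) (hH : stabFamily D ⊓ E Q ≤ M) {x : V} (hx : Linked Q D M x)
    (hns : ∀ i, p i x ≠ 0 → Q (p i x) ≠ 0) {i j l : Fin t}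
    (hij : i ≠ j) (hil : i ≠ l) (hjl : j ≠ l) (hi : p i x ≠ 0) (hj : p j x ≠ 0) (hl : p l x ≠ 0) :
    ∃ s w : V, s ≠ 0 ∧ Has Q M s w ∧ ∃ S : Finset (Fin t), S.card ≤ 4 ∧ (∀ k, k ∉ S → p k s = 0) ∧
      ∃ k, k ∉ S ∧ p k w ≠ 0 := by
  classical
  obtain ⟨hQx, -⟩ := id hx
  have hκ : -(Q x)⁻¹ ≠ 0 := neg_ne_zero.2 (inv_ne_zero hQx)
  have hrep := rep (Q := Q) hD
  choose e₀ f₀ hef using hD
  -- pairs
  obtain ⟨c, hc, d, hd, hQc, hQd, hcx, hdx, hcd⟩ :=
    HB.exists_pair_sing hq (hef i) (hef j) (h.mem i x) (hns i hi) (h.mem j x) (hns j hj)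
  have hc0 : c ≠ 0 := by
    rintro rfl
    exact hQc (QuadraticMap.map_zero Q)
  have hpcd : polar Q c d = 0 := h.orth i j hij c hc d hd
  have hcx' : polar Q c x = Q c := by rw [h.polar_right i x hc, hcx]
  have hdx' : polar Q d x = Q d := by rw [h.polar_right j x hd, hdx]
  have hQcd : Q (c + d) = 0 := by rw [Q_add, hpcd, add_zero, hcd]
  have hpix : ∀ k, k ≠ i → k ≠ j → p k (c + d) = 0 := by
    intro k h1 h2
    rw [map_add, h.other k i h1 c hc, h.other k j h2 d hd, add_zero]
  have hcd0 : c + d ≠ 0 := by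
    intro h0
    have := congrArg (p i) h0
    rw [map_add, h.self i c hc, h.other i j hij d hd, add_zero, map_zero] at this
    exact hc0 this
  have hxcd : polar Q (c + d) x = 0 := by rw [polar_add_left, hcx', hdx', hcd]
  have hgx : (refl Q c hQc * refl Q d hQd) x = x - (c + d) := by
    show refl Q c hQc (refl Q d hQd x) = _
    rw [refl_pair_apply h hd hQd hdx, refl_pair_apply h hc hQc (by
      rw [map_sub, h.other i j hij d hd, sub_zero]; exact hcx)]
    abel
  have hgO : refl Q c hQc * refl Q d hQd ∈ O Q := (O Q).mul_mem (refl_mem_O _) (refl_mem_O _)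
  have hgD : refl Q c hQc * refl Q d hQd ∈ stabFamily D :=
    (stabFamily D).mul_mem (h.refl_mem_stabFamily hc _) (h.refl_mem_stabFamily hd _)
  -- the short case
  have short : (∃ g ∈ stabFamily D ⊓ E Q, g x = x - (c + d)) →
      ∃ s w : V, s ≠ 0 ∧ Has Q M s w ∧ ∃ S : Finset (Fin t), S.card ≤ 4 ∧
        (∀ k, k ∉ S → p k s = 0) ∧ ∃ k, k ∉ S ∧ p k w ≠ 0 := by
    rintro ⟨g, hg, hgx⟩
    refine ⟨c + d, (-(Q x)⁻¹) • x, hcd0, has_of_move h hG hMO hH hx hg hgx hQcd hxcd, {i, j},
      le_trans Finset.card_le_two (by omega), ?_, l, ?_, ?_⟩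
    · intro k hk
      simp only [Finset.mem_insert, Finset.mem_singleton, not_or] at hk
      exact hpix k hk.1 hk.2
    · simp only [Finset.mem_insert, Finset.mem_singleton, not_or]
      exact ⟨Ne.symm hil, Ne.symm hjl⟩
    · rw [map_smul]
      exact smul_ne_zero hκ hl
  by_cases hfull : ∃ m, p m x = 0
  · obtain ⟨m, hm⟩ := hfull
    apply short
    obtain ⟨g, hg, hg'⟩ := exists_mem h hG m (hrep m) hgO hgD
    exact ⟨g, hg, by rw [hg' x hm, hgx]⟩
  push Not at hfull
  by_cases hsq : IsSquare (-1 : F)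
  · apply short
    obtain ⟨e, he⟩ := hsq
    have he0 : e ≠ 0 := by
      rintro rfl
      rw [mul_zero] at he
      exact (neg_ne_zero.2 one_ne_zero) he
    refine ⟨_, ⟨hgD, refl_mul_refl_factor hG hQc hQd he0 ?_⟩, hgx⟩
    rw [← he]
    linear_combination hcd
  -- two pairs
  obtain ⟨l', hl'S⟩ := exists_notMem_finset ({i, j, l} : Finset (Fin t))
    (lt_of_le_of_lt Finset.card_le_three (by omega))
  obtain ⟨k, hkS⟩ := exists_notMem_finset ({i, j, l, l'} : Finset (Fin t))
    (lt_of_le_of_lt Finset.card_le_four (by omega))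
  obtain ⟨c', hc', d', hd', hQc', hQd', hcx2, hdx2, hcd2⟩ :=
    HB.exists_pair_sing hq (hef l) (hef l') (h.mem l x) (hns l hl) (h.mem l' x)
      (hns l' (hfull l'))
  simp only [Finset.mem_insert, Finset.mem_singleton, not_or] at hl'S
  obtain ⟨hl'i, hl'j, hl'l⟩ := hl'S
  have o1 : polar Q c c' = 0 := h.orth i l hil c hc c' hc'
  have o2 : polar Q c d' = 0 := h.orth i l' (Ne.symm hl'i) c hc d' hd'
  have o3 : polar Q d c' = 0 := h.orth j l hjl d hd c' hc'
  have o4 : polar Q d d' = 0 := h.orth j l' (Ne.symm hl'j) d hd d' hd'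
  have o5 : polar Q c' d' = 0 := h.orth l l' (Ne.symm hl'l) c' hc' d' hd'
  have hcx2' : polar Q c' x = Q c' := by rw [h.polar_right l x hc', hcx2]
  have hdx2' : polar Q d' x = Q d' := by rw [h.polar_right l' x hd', hdx2]
  have hgE : refl Q c hQc * refl Q d hQd * (refl Q c' hQc' * refl Q d' hQd') ∈ E Q := by
    have hd1 : Q d = -Q c := by linear_combination hcd
    have hd2 : Q d' = -Q c' := by linear_combination hcd2
    by_cases hcc : IsSquare (Q c * Q c')
    · obtain ⟨e, he, hQ⟩ := exists_factor hQc hQc' hcc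
      have e1 : refl Q c hQc * refl Q d hQd * (refl Q c' hQc' * refl Q d' hQd') =
          (refl Q c hQc * refl Q c' hQc') * (refl Q d hQd * refl Q d' hQd') := by
        have := refl_comm (Q := Q) hQd hQc' o3
        calc _ = refl Q c hQc * (refl Q d hQd * refl Q c' hQc') * refl Q d' hQd' := by group
          _ = _ := by rw [this]; group
      rw [e1]
      exact (E Q).mul_mem (refl_mul_refl_factor hG hQc hQc' he hQ)
        (refl_mul_refl_factor hG hQd hQd' he (by rw [hd1, hd2, hQ]; ring))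
    · have hcc' : IsSquare (Q c * Q d') := by
        have := isSquare_mul_of_not hsq hcc
        rw [hd2]
        obtain ⟨r, hr⟩ := this
        exact ⟨r, by rw [← hr]; ring⟩
      obtain ⟨e, he, hQ⟩ := exists_factor hQc hQd' hcc'
      have e1 : refl Q c hQc * refl Q d hQd * (refl Q c' hQc' * refl Q d' hQd') =
          (refl Q d hQd * refl Q c' hQc') * (refl Q c hQc * refl Q d' hQd') := by
        have h1 := refl_comm (Q := Q) hQc hQd hpcd
        have h2 := refl_comm (Q := Q) hQc hQc' o1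
        calc _ = (refl Q c hQc * refl Q d hQd) * refl Q c' hQc' * refl Q d' hQd' := by group
          _ = refl Q d hQd * (refl Q c hQc * refl Q c' hQc') * refl Q d' hQd' := by rw [h1]; group
          _ = _ := by rw [h2]; group
      rw [e1]
      exact (E Q).mul_mem (refl_mul_refl_factor hG hQd hQc' he (by
          rw [hd1]
          linear_combination -hQ + hd2))
        (refl_mul_refl_factor hG hQc hQd' he hQ)
  have hgD' : refl Q c hQc * refl Q d hQd * (refl Q c' hQc' * refl Q d' hQd') ∈ stabFamily D :=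
    (stabFamily D).mul_mem hgD
      ((stabFamily D).mul_mem (h.refl_mem_stabFamily hc' _) (h.refl_mem_stabFamily hd' _))
  have hgx' : (refl Q c hQc * refl Q d hQd * (refl Q c' hQc' * refl Q d' hQd')) x =
      x - (c + d + (c' + d')) := by
    show (refl Q c hQc * refl Q d hQd) (refl Q c' hQc' (refl Q d' hQd' x)) = _
    rw [refl_pair_apply h hd' hQd' hdx2, refl_pair_apply h hc' hQc' (by
      rw [map_sub, h.other l l' (Ne.symm hl'l) d' hd', sub_zero]; exact hcx2)]
    have e2 : (refl Q c hQc * refl Q d hQd) (x - d' - c') =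
        (refl Q c hQc * refl Q d hQd) x - (d' + c') := by
      rw [sub_sub, map_sub, map_add]
      have f1 : (refl Q c hQc * refl Q d hQd) d' = d' := by
        show refl Q c hQc (refl Q d hQd d') = d'
        rw [refl_apply (v := d), o4, mul_zero, zero_smul, sub_zero, refl_apply, o2, mul_zero, zero_smul,
          sub_zero]
      have f2 : (refl Q c hQc * refl Q d hQd) c' = c' := by
        show refl Q c hQc (refl Q d hQd c') = c'
        rw [refl_apply (v := d), o3, mul_zero, zero_smul, sub_zero, refl_apply, o1, mul_zero, zero_smul,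
          sub_zero]
      rw [f1, f2]
    rw [e2, hgx]
    abel
  have hQs : Q (c + d + (c' + d')) = 0 := by
    rw [Q_add, hQcd, Q_add, o5, polar_add_left, polar_add_right, polar_add_right, o1, o2, o3, o4]
    linear_combination hcd2
  have hxs : polar Q (c + d + (c' + d')) x = 0 := by
    rw [polar_add_left, hxcd, polar_add_left, hcx2', hdx2']
    linear_combination hcd2
  refine ⟨c + d + (c' + d'), (-(Q x)⁻¹) • x, ?_, has_of_move h hG hMO hH hx ⟨hgD', hgE⟩ hgx' hQs hxs,
    {i, j, l, l'}, Finset.card_le_four, ?_, k, hkS, ?_⟩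
  · intro h0
    have := congrArg (p i) h0
    rw [map_add, map_add, map_add, h.self i c hc, h.other i j hij d hd, h.other i l hil c' hc',
      h.other i l' (Ne.symm hl'i) d' hd', map_zero, add_zero, add_zero, add_zero] at this
    exact hc0 this
  · intro k hk
    simp only [Finset.mem_insert, Finset.mem_singleton, not_or] at hk
    rw [map_add, hpix k hk.1 hk.2.1, map_add, h.other k l hk.2.2.1 c' hc',
      h.other k l' hk.2.2.2 d' hd', add_zero, add_zero]
  · rw [map_smul]
    exact smul_ne_zero hκ (hfull k)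

/-- **Non-rigid overgroups contain `E Q`.** -/
theorem E_le_of_not_rigid (hq : 7 ≤ Nat.card F) (hG : Good Q) (h : Dec Q D p)
    (hD : ∀ i, ∃ e f, HB Q (D i) e f)
    (hiso : ∀ i j, ∃ e : D i ≃ₗ[F] D j, ∀ z : D i, Q (e z : V) = Q (z : V))
    (ht : 6 ≤ t) (hMO : M ≤ O Q) (hH : stabFamily D ⊓ E Q ≤ M) (hR : ¬ Rigid Q D M) : E Q ≤ M := by
  classical
  obtain ⟨x, hx, hxD⟩ : ∃ x, Linked Q D M x ∧ ∀ i, x ∉ D i := by
    unfold Rigid at hR
    push Not at hR
    obtain ⟨i, a, ha, hQa, x, hQx, hM, hx⟩ := hR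
    exact ⟨x, ⟨hQx, i, a, ha, hQa, hM⟩, hx⟩
  by_cases hns : ∀ i, p i x ≠ 0 → Q (p i x) ≠ 0
  swap
  · push Not at hns
    obtain ⟨i, hi, hQi⟩ := hns
    exact E_le_of_sing_comp hq hG h hD hiso (by omega) hMO hH hx hi hQi
  obtain ⟨x', hx', i₁, i₂, i₃, h12, h13, h23, hc1, hc2, hc3⟩ :=
    exists_three hq hG h hD hiso (by omega) hMO hH hx hxD hns
  by_cases hns' : ∀ i, p i x' ≠ 0 → Q (p i x') ≠ 0
  swap
  · push Not at hns'
    obtain ⟨i, hi, hQi⟩ := hns'
    exact E_le_of_sing_comp hq hG h hD hiso (by omega) hMO hH hx' hi hQi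
  obtain ⟨s, w, hs0, hsw, S, hS, hpS, a, haS, haw⟩ :=
    exists_siegel hq hG h hD (by omega) hMO hH hx' hns' h12 h13 h23 hc1 hc2 hc3
  obtain ⟨b, hb⟩ := exists_notMem_finset (insert a S)
    (lt_of_le_of_lt (Finset.card_insert_le _ _) (by omega))
  simp only [Finset.mem_insert, not_or] at hb
  have hA : ∀ w ∈ D a, Has Q M s w := fun w hw =>
    has_member hq hG h hD hMO hH (Ne.symm hb.1) (hpS a haS) (hpS b hb.2) hsw haw hw
  obtain ⟨e, f, hef⟩ := hD a
  have h1 := (hA e hef.he).swap hef.Qe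
  refine E_le_of_has hq hG h hD hiso (by omega) hMO hH hef.he hef.e_ne h1 ?_
  intro c hc
  have h2 := congrArg (p a) hc
  rw [map_neg, hpS a haS, neg_zero, map_smul, h.self a e hef.he] at h2
  have h3 := (smul_eq_zero.1 h2.symm).resolve_right hef.e_ne
  rw [h3, zero_smul, neg_eq_zero] at hc
  exact hs0 hc

end Planes

end Cfsg.Agent.H886.HypNonRigid
end

-- part: H885/HypMain
section
/-!
**The stabiliser in `Ω` of an orthogonal decomposition into hyperbolic planes is maximal** (`|F| ≥ 7`, at least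
six planes; the non-rigid half is due to helper886).
-/

set_option autoImplicit false
set_option linter.unusedSectionVars false

namespace Cfsg.Agent.H885.HypMain

open QuadraticMap Cfsg.Agent.LieClassical.OrthCore Cfsg.Agent.LieClassical.OrthTrans
  Cfsg.Agent.LieClassical.OrthFinite Cfsg.Agent.LieClassical.OrthSimple Cfsg.Agent.H883.Bridge
  Cfsg.Agent.H885.RootT Cfsg.Agent.H885.Irr Cfsg.Agent.H885.C2Scalar Cfsg.Agent.H885.C2Conn
  Cfsg.Agent.H886.Decomp Cfsg.Agent.H885.C2Trans
  Cfsg.Agent.H885.C2NonRigid Cfsg.Agent.H885.HypCore Cfsg.Agent.H885.HypRigid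
  Cfsg.Agent.H885.C2Main

section Free

variable {F V : Type*} [Field F] [AddCommGroup V] [Module F V] {Q : QuadraticForm F V} {t : ℕ}
  {D : Fin t → Submodule F V}

/-- **Maximality, coordinate free.** -/
theorem maximal_free [Finite F] [FiniteDimensional F V] (hq : 7 ≤ Nat.card F) (hG : Good Q)
    (horth : ∀ i j, i ≠ j → ∀ x ∈ D i, ∀ y ∈ D j, polar Q x y = 0) (hspan : iSup D = ⊤)
    (hrank : ∀ i, Module.finrank F (D i) = 2) (hsing : ∀ i, ∃ x ∈ D i, x ≠ 0 ∧ Q x = 0)
    (hiso : ∀ i j, ∃ e : D i ≃ₗ[F] D j, ∀ z : D i, Q (e z : V) = Q (z : V)) (ht : 6 ≤ t) :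
    Cfsg.Geo.IsMaximalIn (E Q) (stabFamily D ⊓ E Q) := by
  obtain ⟨p, h⟩ := exists_dec hG.nondeg horth hspan
  have hnd : ∀ i, NdOn Q (D i) := fun i => h.nondegOn hG.nondeg i
  have hpair : ∀ i, ∃ e f, e ∈ D i ∧ f ∈ D i ∧ Hyp Q e f := by
    intro i
    obtain ⟨x, hx, hx0, hQx⟩ := hsing i
    obtain ⟨y, hy, hQy, hxy⟩ := exists_partner (hnd i) hx hx0 hQx
    exact ⟨x, y, hx, hy, ⟨hQx, hQy, hxy⟩⟩
  choose e f he hf hyp using hpair
  have hHB : ∀ i, ∃ e f, Cfsg.Agent.H886.HypPl.HB Q (D i) e f := fun i =>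
    ⟨e i, f i, he i, hf i, (hyp i).left, (hyp i).right, (hyp i).pair, fun y hy =>
      ⟨_, _, coord (hrank i) (he i) (hf i) (hyp i) hy⟩⟩
  refine ⟨lt_of_le_of_ne inf_le_right fun heq => ?_, fun M hM1 hM2 => ?_⟩
  · refine not_E_le h (by omega) (fun i => ⟨e i, f i, he i, hf i, hyp i⟩) ?_
    rw [← heq]
    exact inf_le_left
  · have key : M ≤ stabFamily D ∨ E Q ≤ M := by
      by_cases hR : Cfsg.Agent.H886.Rigid.Rigid Q D M
      · have c : HCtx Q D p e f M :=
          ⟨h, hG, hrank, he, hf, hyp, hiso, by omega, hq, hM1, hM2⟩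
        refine HCtx'.le_or_le c (by omega) ?_
        intro i a ha hQa b hQb _ hm
        exact hR i a ha hQa b hQb hm
      · exact Or.inr (Cfsg.Agent.H886.HypNonRigid.E_le_of_not_rigid hq hG h hHB hiso ht
          (hM2.trans E_le_O) hM1 hR)
    rcases key with h6 | h6
    · left
      exact le_antisymm (le_inf h6 hM2) hM1
    · right
      exact le_antisymm hM2 h6

end Free

section Geo

variable {ι : Type} [Fintype ι] [DecidableEq ι] {F : Type*} [Field F]

/-- **Orthogonal decompositions into hyperbolic planes: the stabiliser in `Ω` is maximal.** -/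
theorem decomposition_maximal [Fintype F] (hq : 7 ≤ Fintype.card F) {Q : (ι → F) → F}
    (hQ : Cfsg.Geo.IsNondegenerateQuadraticForm Q) (hn : 12 ≤ Fintype.card ι) {t : ℕ}
    {D : Fin t → Submodule F (ι → F)} (hD : Cfsg.Geo.IsOrthogonalMDecomposition Q 2 D)
    (hplus : ∀ i, Cfsg.Geo.IsPlusTypeOn Q (D i)) :
    Cfsg.Geo.IsMaximalIn (Cfsg.Geo.omegaGL Q)
      (Cfsg.Geo.decompositionStabilizer D ⊓ Cfsg.Geo.omegaGL Q) := by
  have htk := Cfsg.Agent.H886.finrank_mdecomposition hD.decomp.decomp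
  refine decompositionStabilizer_maximal hQ (by omega) D ?_
  rintro Q' rfl hG
  refine maximal_free (by rw [Nat.card_eq_fintype_card]; exact hq) hG
    (fun i j hij x hx y hy => hD.decomp.orthogonal i j hij x hx y hy)
    hD.decomp.decomp.iSup_eq_top hD.decomp.decomp.finrank_eq ?_
    (fun i j => hD.isometric i j) (by omega)
  intro i
  obtain ⟨U, hU, hUs, hUd⟩ := hplus i
  rw [hD.decomp.decomp.finrank_eq] at hUd
  have hU1 : U ≠ ⊥ := by
    rintro rfl
    rw [finrank_bot] at hUd
    omega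
  obtain ⟨x, hx, hx0⟩ := Submodule.exists_mem_ne_zero_of_ne_bot hU1
  exact ⟨x, hU hx, hx0, hUs x hx⟩

end Geo

end Cfsg.Agent.H885.HypMain
end
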