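import Cfsg.Agent.H885.NondegGeo
set_option linter.all false

/-!
Characteristic two: the stabiliser in `Ω(Q)` of the line of a nonsingular vector is maximal.
-/

set_option autoImplicit false

namespace Cfsg.Agent.H885.NonsingVec

open QuadraticMap Cfsg.Agent.LieClassical.OrthCore Cfsg.Agent.LieClassical.OrthTrans
  Cfsg.Agent.LieClassical.OrthFinite Cfsg.Agent.H885.RootT
  Cfsg.Agent.H885.Irr Cfsg.Agent.H883.Bridge Cfsg.Agent.H885.Nondeg Cfsg.Agent.H885.NondegGeo

variable {F V : Type*} [Field F] [AddCommGroup V] [Module F V] {Q : QuadraticForm F V}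

/-- In characteristic two an isometry stabilising the line of a nonsingular vector fixes the vector. -/
theorem mem_stab_line_iff [Module.Finite F V] (h2 : (2 : F) = 0) {v : V} (hv : Q v ≠ 0)
    {g : V ≃ₗ[F] V} (hg : g ∈ O Q) : g ∈ stab (Submodule.span F {v}) ↔ g v = v := by
  constructor
  · intro h
    obtain ⟨c, hc⟩ := Submodule.mem_span_singleton.1 ((h v).1 (Submodule.mem_span_singleton_self v))
    have h1 : Q (g v) = Q v := mem_O.1 hg v
    rw [← hc, QuadraticMap.map_smul, smul_eq_mul] at h1
    have h3 : c * c = 1 := mul_right_cancel₀ hv (by rw [h1, one_mul])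
    have h4 : (c - 1) * (c - 1) = 0 := by linear_combination h3 - (c - 1) * h2
    have h5 : c = 1 := by
      rcases mul_eq_zero.1 h4 with h | h <;> linear_combination h
    rw [← hc, h5, one_smul]
  · intro h
    refine mem_stab_of_le fun w hw => ?_
    obtain ⟨c, rfl⟩ := Submodule.mem_span_singleton.1 hw
    rw [map_smul, h]
    exact hw

/-- Siegel transformations orthogonal to `v` fix `v`. -/
theorem SM_of_perp [Module.Finite F V] (h2 : (2 : F) = 0) {v x w : V} (hv : Q v ≠ 0)
    (hQx : Q x = 0) (hxw : polar Q x w = 0) (hxv : polar Q x v = 0) (hwv : polar Q w v = 0) :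
    SM (stab (Submodule.span F {v}) ⊓ E Q) Q x w := by
  refine ⟨hQx, hxw, (mem_stab_line_iff h2 hv (siegel_mem_O _ _)).2 ?_, siegel_mem_E _ _⟩
  rw [siegel_apply, hxv, hwv]
  simp

/-- **Maximality of the stabiliser of a nonsingular vector in characteristic two.** -/
theorem maximal [Finite F] [Module.Finite F V] (hQ : Nondeg Q) (hd : 7 ≤ Module.finrank F V)
    (h2 : (2 : F) = 0) {v : V} (hv : Q v ≠ 0) :
    Cfsg.Geo.IsMaximalIn (E Q) (stab (Submodule.span F {v}) ⊓ E Q) := by
  have hG : Good Q := good_of_finite hQ (by omega)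
  have hv0 : v ≠ 0 := by rintro rfl; exact hv (QuadraticMap.map_zero Q)
  have hself : ∀ x : V, polar Q x x = 0 := fun x => by rw [polar_self', h2, zero_mul]
  refine ⟨lt_of_le_of_ne inf_le_right ?_, fun M hM hME => ?_⟩
  · intro heq
    obtain ⟨x, hx0, hQx, hvx⟩ := exists_sing_perp (Q := Q) ![v] (by omega)
    have hxv : polar Q x v = 0 := by rw [polar_comm]; exact hvx 0
    have hvx' : v ∉ Submodule.span F {x} := by
      intro h
      obtain ⟨c, rfl⟩ := Submodule.mem_span_singleton.1 h
      apply hv
      rw [QuadraticMap.map_smul, hQx, smul_zero]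
    obtain ⟨y, hy1, hy2⟩ := exists_sep_span hQ hvx'
    have hxy : polar Q x y = 0 := hy1 x (Submodule.mem_span_singleton_self x)
    have hm : siegel Q x y hQx hxy ∈ stab (Submodule.span F {v}) ⊓ E Q := by
      rw [heq]; exact siegel_mem_E _ _
    have h3 := (mem_stab_line_iff h2 hv (siegel_mem_O _ _)).1 hm.1
    rw [siegel_apply, hxv, polar_comm Q y v, hy2] at h3
    apply hx0
    have e : x = v - (v + (0 : F) • y - (1 : F) • x - (Q y * 0) • x) := by module
    rw [e, h3, sub_self]
  · by_cases hMW : M ≤ stab (Submodule.span F {v}) ⊓ E Q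
    · exact Or.inl (le_antisymm hMW hM)
    right
    have hMO : M ≤ O Q := hME.trans E_le_O
    obtain ⟨g, hgM, hg⟩ := SetLike.not_le_iff_exists.1 hMW
    have hgO : g ∈ O Q := hMO hgM
    have hgv : g v ≠ v := fun h => hg ⟨(mem_stab_line_iff h2 hv hgO).2 h, hME hgM⟩
    have hgv' : g v ∉ Submodule.span F {v} := by
      intro h
      obtain ⟨c, hc⟩ := Submodule.mem_span_singleton.1 h
      apply hgv
      apply (mem_stab_line_iff h2 hv hgO).1
      refine mem_stab_of_le fun w hw => ?_
      obtain ⟨d, rfl⟩ := Submodule.mem_span_singleton.1 hw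
      rw [map_smul, ← hc]
      exact Submodule.smul_mem _ _ (Submodule.smul_mem _ _ (Submodule.mem_span_singleton_self v))
    obtain ⟨z, hz1, hz2⟩ := exists_sep_span hQ hgv'
    have hvz : polar Q v z = 0 := hz1 v (Submodule.mem_span_singleton_self v)
    obtain ⟨v', hvv'⟩ := hQ.exists_polar_eq hv0 1
    -- the nondegenerate plane `⟨v, v'⟩`
    set W := Submodule.span F {v, v'} with hW
    have hvW : v ∈ W := Submodule.subset_span (Set.mem_insert _ _)
    have hv'W : v' ∈ W := Submodule.subset_span (Set.mem_insert_of_mem _ rfl)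
    have hWnd : NdOn Q W := by
      intro w hw hall
      obtain ⟨a, b, rfl⟩ := Submodule.mem_span_pair.1 hw
      have h3 := hall v hvW
      have h4 := hall v' hv'W
      rw [polar_add_left, polar_smul_left, polar_smul_left, hself, polar_comm Q v' v, hvv'] at h3
      rw [polar_add_left, polar_smul_left, polar_smul_left, hself, hvv'] at h4
      simp only [smul_eq_mul, mul_zero, mul_one, zero_add, add_zero] at h3 h4
      rw [h3, h4]
      simp
    have hs := split_perp hWnd
    have hW2 : Module.finrank F W ≤ 2 := by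
      classical
      have := finrank_span_finset_le_card (R := F) ({v, v'} : Finset V)
      rw [Finset.coe_pair] at this
      exact this.trans Finset.card_le_two
    have hfr := hs.finrank hQ
    set U := perp Q W with hU
    have hGU : Good (Q.comp U.subtype) :=
      good_of_finite (nondeg_comp (hs.ndOn_right hQ)) (by omega)
    have hD : ∀ x ∈ U, ∀ w ∈ U, Q x = 0 → polar Q x w = 0 →
        SM (stab (Submodule.span F {v}) ⊓ E Q) Q x w := fun x hx w hw h3 h4 =>
      SM_of_perp h2 hv h3 h4 (hs.perp' hx hvW) (hs.perp' hw hvW)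
    obtain ⟨a, haU, ha0, hQa, hap⟩ := exists_sing_mem_perp (Q := Q) ![g v, z] U (by omega)
    have hgva : polar Q (g v) a = 0 := hap 0
    have hza : polar Q z a = 0 := hap 1
    have hav : polar Q a v = 0 := hs.perp' haU hvW
    -- the two hyperplanes of `a^⊥` in `T_a(M)`
    have hT1 : ∀ w, polar Q a w = 0 → polar Q w v = 0 → w ∈ T M Q a hQa := by
      intro w hw1 hw2 c
      exact (SM_of_perp h2 hv hQa (by rw [polar_smul_right, hw1, smul_zero]) hav
        (by rw [polar_smul_left, hw2, smul_zero])).mono hM
    have hT2 : ∀ w, polar Q a w = 0 → polar Q w (g v) = 0 → w ∈ T M Q a hQa := by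
      intro w hw1 hw2
      obtain ⟨a₁, rfl⟩ := g.surjective a
      obtain ⟨w₁, rfl⟩ := g.surjective w
      rw [polar_map hgO] at hw1 hw2
      have hQa₁ : Q a₁ = 0 := by rw [← mem_O.1 hgO a₁]; exact hQa
      have ha₁v : polar Q a₁ v = 0 := by rw [← polar_map hgO, polar_comm]; exact hgva
      have h3 : w₁ ∈ T M Q a₁ hQa₁ := fun c =>
        (SM_of_perp h2 hv hQa₁ (by rw [polar_smul_right, hw1, smul_zero]) ha₁v
          (by rw [polar_smul_left, hw2, smul_zero])).mono hM
      exact T_conj hgM hgO h3 hQa
    have hfull : Full M Q a := by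
      refine full_of_T_eq (hx := hQa) fun w hw => ?_
      have h3 : w - polar Q (g v) w • z ∈ T M Q a hQa := by
        refine hT2 _ ?_ ?_
        · rw [polar_sub_right, polar_smul_right, polar_comm Q a z, hza, hw]
          simp
        · rw [polar_sub_left, polar_smul_left, polar_comm Q z, hz2, polar_comm Q w]
          simp
      have h4 : polar Q (g v) w • z ∈ T M Q a hQa := by
        refine Submodule.smul_mem _ _ (hT1 z ?_ ?_)
        · rw [polar_comm]; exact hza
        · rw [polar_comm]; exact hvz
      have := Submodule.add_mem _ h3 h4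
      rwa [sub_add_cancel] at this
    obtain ⟨b, hb⟩ := Cfsg.Agent.LieClassical.OrthTrans.exists_hyp hGU.nondeg (x := ⟨a, haU⟩) hQa
      (fun h => ha0 (congrArg Subtype.val h))
    have hab : polar Q a (b : V) = 1 := hb.pair
    have hb0 : (b : V) ≠ 0 := by
      intro h0
      rw [h0, polar_zero_right] at hab
      exact zero_ne_one hab
    obtain ⟨k, hk, e⟩ := exists_trans hGU hD haU b.2 ha0 hb0 hQa hb.right
    have hfb : Full M Q (b : V) := by
      rw [← e]
      exact hfull.conj (hM hk) (hMO (hM hk))
    exact le_antisymm hME (E_le_of_full hG hMO hfull hfb (by rw [hab]; exact one_ne_zero))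

theorem two_eq_zero_of_not_odd {F : Type*} [Field F] [Fintype F] (h : ¬ Odd (Fintype.card F)) :
    (2 : F) = 0 := by
  by_contra h2
  apply h
  have h3 : ringChar F ≠ 2 := by
    intro h4
    apply h2
    have := ringChar.Nat.cast_ringChar (R := F)
    rw [h4] at this
    exact_mod_cast this
  exact Nat.odd_iff.2 (FiniteField.odd_card_of_char_ne_two h3)

end Cfsg.Agent.H885.NonsingVec
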